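import Mathlib

/-!
# Abelian `2`-groups with automorphisms transitive on involutions are homocyclic
-/

set_option autoImplicit false

namespace Cfsg.Agent.H453.Homocyclic

theorem exists_equiv {A : Type*} [CommGroup A] [Finite A] {p : ℕ} [hp : Fact p.Prime] (hA : IsPGroup p A)
    (htr : ∀ x y : A, orderOf x = p → orderOf y = p → ∃ a : A ≃* A, a x ∈ Subgroup.zpowers y) :
    ∃ m r : ℕ, Nonempty (A ≃* (Fin r → Multiplicative (ZMod (p ^ m)))) := by
  classical
  obtain ⟨ι, hι, n, hn, ⟨e⟩⟩ := CommGroup.equiv_prod_multiplicative_zmod_of_finite A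
  have hpow : ∀ i, ∃ k, n i = p ^ k := by
    intro i
    have h1 := IsPGroup.iff_orderOf.mp (hA.of_equiv e) (Pi.mulSingle i (Multiplicative.ofAdd (1 : ZMod (n i))))
    obtain ⟨k, hk⟩ := h1
    refine ⟨k, ?_⟩
    rw [← hk, orderOf_piMulSingle, orderOf_ofAdd_eq_addOrderOf, ZMod.addOrderOf_one]
  choose a ha using hpow
  have ha0 : ∀ i, a i ≠ 0 := by
    intro i h
    have := hn i
    rw [ha, h, pow_zero] at this
    omega
  obtain rfl : n = fun i => p ^ a i := funext ha
  let z : ι → A := fun i => e.symm (Pi.mulSingle i (Multiplicative.ofAdd (1 : ZMod (p ^ a i))))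
  have hz : ∀ i, orderOf (z i) = p ^ a i := by
    intro i
    rw [show z i = e.symm _ from rfl, MulEquiv.orderOf_eq, orderOf_piMulSingle, orderOf_ofAdd_eq_addOrderOf,
      ZMod.addOrderOf_one]
  have hz2 : ∀ i, orderOf (z i ^ p ^ (a i - 1)) = p := by
    intro i
    rw [orderOf_pow_of_dvd (pow_ne_zero _ hp.out.ne_zero) (by rw [hz]; exact pow_dvd_pow _ (Nat.sub_le _ _)), hz,
      Nat.pow_div (Nat.sub_le _ _) hp.out.pos, Nat.sub_sub_self (Nat.one_le_iff_ne_zero.mpr (ha0 i)), pow_one]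
  have hlt : ∀ i j, ¬ a i < a j := by
    intro i j hij
    obtain ⟨f, hf⟩ := htr _ _ (hz2 j) (hz2 i)
    -- the zpowers are equal
    have h1 : orderOf (f (z j ^ p ^ (a j - 1))) = p := by rw [MulEquiv.orderOf_eq, hz2]
    have h2 : Subgroup.zpowers (f (z j ^ p ^ (a j - 1))) = Subgroup.zpowers (z i ^ p ^ (a i - 1)) := by
      apply Subgroup.eq_of_le_of_card_ge (Subgroup.zpowers_le.mpr hf)
      rw [Nat.card_zpowers, Nat.card_zpowers, h1, hz2]
    have h3 : z i ^ p ^ (a i - 1) ∈ Subgroup.zpowers (f (z j ^ p ^ (a j - 1))) := by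
      rw [h2]; exact Subgroup.mem_zpowers _
    obtain ⟨k, hk⟩ := h3
    have h4 : z i ^ p ^ (a i - 1) = (f (z j) ^ k) ^ p ^ (a j - 1) := by
      rw [← hk, map_pow]
      show (f (z j) ^ p ^ (a j - 1)) ^ k = _
      rw [← zpow_natCast, ← zpow_natCast, ← zpow_mul, ← zpow_mul, mul_comm]
    have h5 : (e (z i ^ p ^ (a i - 1))) i = 1 := by
      rw [h4, map_pow, Pi.pow_apply]
      obtain ⟨c, hc⟩ : p ^ a i ∣ p ^ (a j - 1) := pow_dvd_pow p (by omega)
      rw [hc, pow_mul]
      have h6 : ((e (f (z j) ^ k)) i) ^ p ^ a i = 1 := by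
        have h7 := ZMod.natCast_self (p ^ a i)
        rw [← toAdd_eq_zero, toAdd_pow, nsmul_eq_mul, h7, zero_mul]
      rw [h6, one_pow]
    have h6 : z i ^ p ^ (a i - 1) = 1 := by
      apply e.injective
      rw [map_one]
      funext l
      by_cases hl : l = i
      · subst hl; exact h5
      · rw [map_pow, show e (z i) = _ from e.apply_symm_apply _, Pi.pow_apply, Pi.mulSingle_eq_of_ne hl, one_pow]
        rfl
    have h7 := hz2 i
    rw [h6, orderOf_one] at h7
    exact hp.out.one_lt.ne h7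
  obtain ⟨m, hm⟩ : ∃ m, ∀ i, a i = m := by
    by_cases hne : Nonempty ι
    · obtain ⟨i⟩ := hne
      exact ⟨a i, fun j => le_antisymm (not_lt.mp (hlt i j)) (not_lt.mp (hlt j i))⟩
    · exact ⟨0, fun i => (hne ⟨i⟩).elim⟩
  obtain rfl : a = fun _ => m := funext hm
  exact ⟨m, Fintype.card ι, ⟨e.trans (MulEquiv.arrowCongr (Fintype.equivFin ι) (MulEquiv.refl _))⟩⟩

end Cfsg.Agent.H453.Homocyclic
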