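import Mathlib

/-!
# Anisotropic quadratic maps over `𝔽₂`: Gauss sums

`s : U → W` a quadratic map between finite `𝔽₂`-spaces with `s x = 0 → x = 0`.
* `card_eq`: if all fibres over nonzero elements have the same size then `|U| = |W|` or `|U| = |W|²`.
* `idem`: if moreover `|U| = |W|²` then a self-adjoint idempotent is `0` or `1`.
-/

set_option autoImplicit false
set_option linter.unusedSectionVars false

namespace Cfsg.Agent.H453.Quad

open Finset

/-- the sign -/
def e (a : ZMod 2) : ℤ := if a = 0 then 1 else -1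

theorem e_zero : e 0 = 1 := rfl

theorem e_add (a b : ZMod 2) : e (a + b) = e a * e b := by
  revert a b; decide

theorem e_one : e 1 = -1 := rfl

theorem e_cases (a : ZMod 2) : e a = 1 ∨ e a = -1 := by
  revert a; decide

theorem e_sq (a : ZMod 2) : e a * e a = 1 := by
  revert a; decide

/-- orthogonality -/
theorem sum_e {A : Type*} [AddCommGroup A] [Fintype A] (φ : A →+ ZMod 2) :
    (φ = 0 ∧ ∑ a, e (φ a) = Fintype.card A) ∨ (φ ≠ 0 ∧ ∑ a, e (φ a) = 0) := by
  by_cases h : φ = 0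
  · left
    refine ⟨h, ?_⟩
    subst h
    simp [e_zero]
  · right
    refine ⟨h, ?_⟩
    obtain ⟨b, hb⟩ : ∃ b, φ b ≠ 0 := by
      by_contra hc
      push Not at hc
      exact h (AddMonoidHom.ext hc)
    have hb1 : φ b = 1 := by
      have : ∀ a : ZMod 2, a ≠ 0 → a = 1 := by decide
      exact this _ hb
    have h1 : ∑ a, e (φ a) = ∑ a, e (φ (a + b)) :=
      (Equiv.sum_comp (Equiv.addRight b) (fun a => e (φ a))).symm
    have h2 : ∑ a, e (φ (a + b)) = - ∑ a, e (φ a) := by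
      rw [← Finset.sum_neg_distrib]
      refine Finset.sum_congr rfl fun a _ => ?_
      rw [map_add, e_add, hb1, e_one]
      ring
    have h3 : ∑ a, e (φ a) = - ∑ a, e (φ a) := h1.trans h2
    omega

variable {U W : Type*} [AddCommGroup U] [AddCommGroup W] [Module (ZMod 2) U] [Module (ZMod 2) W]

theorem add_self {A : Type*} [AddCommGroup A] [Module (ZMod 2) A] (x : A) : x + x = 0 := by
  have h : (2 : ZMod 2) • x = 0 := by
    rw [show (2 : ZMod 2) = 0 from rfl, zero_smul]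
  rwa [two_smul] at h

/-- the polar form -/
def b (s : U → W) (x y : U) : W := s (x + y) + s x + s y

/-- quadratic maps -/
structure IsQ (s : U → W) : Prop where
  zero : s 0 = 0
  add_left : ∀ x y z, b s (x + y) z = b s x z + b s y z

theorem b_comm (s : U → W) (x y : U) : b s x y = b s y x := by
  simp only [b, add_comm x y]
  abel

theorem IsQ.add_right {s : U → W} (h : IsQ s) (x y z : U) : b s x (y + z) = b s x y + b s x z := by
  rw [b_comm, h.add_left, b_comm s y, b_comm s z]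

theorem s_add (s : U → W) (x y : U) : s (x + y) = b s x y + s x + s y := by
  rw [b]
  have h1 := add_self (s x)
  have h2 := add_self (s y)
  calc s (x + y) = s (x + y) + (s x + s x) + (s y + s y) := by rw [h1, h2, add_zero, add_zero]
    _ = _ := by abel

/-- the polar form composed with a functional, as a homomorphism in the first variable -/
def bHom {s : U → W} (h : IsQ s) (χ : W →ₗ[ZMod 2] ZMod 2) (z : U) : U →+ ZMod 2 :=
  AddMonoidHom.mk' (fun x => χ (b s x z)) (fun x y => by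
    show χ (b s (x + y) z) = χ (b s x z) + χ (b s y z)
    rw [h.add_left, map_add])

/-- the radical -/
def Rad {s : U → W} (h : IsQ s) (χ : W →ₗ[ZMod 2] ZMod 2) : AddSubgroup U where
  carrier := {z | ∀ x, χ (b s x z) = 0}
  zero_mem' := by
    intro x
    have h1 := h.add_right x 0 0
    rw [add_zero] at h1
    have h2 : b s x 0 = 0 := by
      have h3 := add_self (b s x 0)
      rw [h3] at h1
      exact h1
    rw [h2, map_zero]
  add_mem' := by
    intro z z' hz hz' x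
    rw [h.add_right, map_add, hz x, hz' x, add_zero]
  neg_mem' := by
    intro z hz x
    have : -z = z := neg_eq_of_add_eq_zero_left (add_self z)
    rw [this]; exact hz x

section

variable [Fintype U] [Fintype W]

/-- the Gauss sum -/
def G (s : U → W) (χ : W →ₗ[ZMod 2] ZMod 2) : ℤ := ∑ x, e (χ (s x))

theorem G_sq {s : U → W} (h : IsQ s) (χ : W →ₗ[ZMod 2] ZMod 2) :
    G s χ ^ 2 = 0 ∨ G s χ ^ 2 = Nat.card U * Nat.card (Rad h χ) := by
  classical
  have h1 : G s χ ^ 2 = ∑ z, e (χ (s z)) * ∑ x, e (bHom h χ z x) := by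
    have h2 : ∀ x : U, G s χ = ∑ z, e (χ (s (x + z))) := fun x =>
      (Equiv.sum_comp (Equiv.addLeft x) (fun a => e (χ (s a)))).symm
    have h3 : G s χ ^ 2 = ∑ x, e (χ (s x)) * G s χ := by
      rw [← Finset.sum_mul, pow_two]; rfl
    rw [h3]
    simp_rw [Finset.mul_sum]
    rw [Finset.sum_comm]
    have h4 : ∀ x, e (χ (s x)) * G s χ = ∑ z, e (χ (s z)) * e (bHom h χ z x) := by
      intro x
      rw [h2 x, Finset.mul_sum]
      refine Finset.sum_congr rfl fun z _ => ?_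
      have h5 : e (χ (s (x + z))) = e (bHom h χ z x) * e (χ (s x)) * e (χ (s z)) := by
        rw [s_add s, map_add, map_add, e_add, e_add]; rfl
      rw [h5]
      have h6 := e_sq (χ (s x))
      calc e (χ (s x)) * (e (bHom h χ z x) * e (χ (s x)) * e (χ (s z)))
          = (e (χ (s x)) * e (χ (s x))) * (e (χ (s z)) * e (bHom h χ z x)) := by ring
        _ = _ := by rw [h6, one_mul]
    exact Finset.sum_congr rfl fun x _ => h4 x
  have h2 : ∀ z, ∑ x, e (bHom h χ z x) = if z ∈ Rad h χ then (Fintype.card U : ℤ) else 0 := by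
    intro z
    rcases sum_e (bHom h χ z) with ⟨h3, h4⟩ | ⟨h3, h4⟩
    · rw [h4, if_pos]
      intro x
      exact DFunLike.congr_fun h3 x
    · rw [h4, if_neg]
      intro hz
      exact h3 (AddMonoidHom.ext fun x => hz x)
  rw [h1]
  simp_rw [h2]
  have h3 : ∑ z, e (χ (s z)) * (if z ∈ Rad h χ then (Fintype.card U : ℤ) else 0) =
      Fintype.card U * ∑ z : Rad h χ, e (χ (s z)) := by
    rw [Finset.mul_sum]
    simp_rw [mul_ite, mul_zero]
    rw [← Finset.sum_filter]
    rw [Finset.sum_subtype (p := fun z => z ∈ Rad h χ) (Finset.univ.filter (fun z => z ∈ Rad h χ)) (by simp)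
      (fun z => e (χ (s z)) * (Fintype.card U : ℤ))]
    exact Finset.sum_congr rfl fun z _ => mul_comm _ _
  rw [h3]
  let φ : Rad h χ →+ ZMod 2 := AddMonoidHom.mk' (fun z => χ (s z)) (fun z z' => by
    show χ (s ((z : U) + z')) = _
    rw [s_add s, map_add, map_add, z'.2 z, zero_add])
  rcases sum_e φ with ⟨-, h4⟩ | ⟨-, h4⟩
  · right
    have h5 : ∑ z : Rad h χ, e (χ (s z)) = Fintype.card (Rad h χ) := h4
    rw [h5, Nat.card_eq_fintype_card, Nat.card_eq_fintype_card]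
  · left
    have h5 : ∑ z : Rad h χ, e (χ (s z)) = 0 := h4
    rw [h5, mul_zero]

theorem card_pow (A : Type*) [AddCommGroup A] [Module (ZMod 2) A] [Finite A] :
    Nat.card A = 2 ^ Module.finrank (ZMod 2) A := by
  have : Module.Finite (ZMod 2) A := Module.Finite.of_finite
  have h := Module.natCard_eq_pow_finrank (K := ZMod 2) (V := A)
  rwa [Nat.card_zmod] at h

theorem card_addSubgroup (A : AddSubgroup U) : ∃ k, Nat.card A = 2 ^ k := by
  have h1 : Nat.card A ∣ Nat.card U := AddSubgroup.card_addSubgroup_dvd_card A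
  rw [card_pow U] at h1
  obtain ⟨k, -, hk⟩ := (Nat.dvd_prime_pow Nat.prime_two).mp h1
  exact ⟨k, hk⟩

/-- a nonzero Gauss sum is plus or minus a power of two -/
theorem G_cases {s : U → W} (h : IsQ s) (χ : W →ₗ[ZMod 2] ZMod 2) :
    G s χ = 0 ∨ ∃ j, G s χ = 2 ^ j ∨ G s χ = - 2 ^ j := by
  rcases G_sq h χ with h1 | h1
  · left; exact pow_eq_zero_iff (two_ne_zero) |>.mp h1
  · right
    obtain ⟨k, hk⟩ := card_addSubgroup (Rad h χ)
    have h2 : (G s χ).natAbs ^ 2 = 2 ^ (Module.finrank (ZMod 2) U + k) := by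
      have h3 : ((G s χ).natAbs ^ 2 : ℤ) = (2 ^ (Module.finrank (ZMod 2) U + k) : ℕ) := by
        rw [Int.natAbs_sq, h1, hk, card_pow U, pow_add]
        push_cast; ring
      exact_mod_cast h3
    have h3 : (G s χ).natAbs ∣ 2 ^ (Module.finrank (ZMod 2) U + k) := by
      rw [← h2]; exact dvd_pow_self _ two_ne_zero
    obtain ⟨j, -, hj⟩ := (Nat.dvd_prime_pow Nat.prime_two).mp h3
    refine ⟨j, ?_⟩
    rcases Int.natAbs_eq (G s χ) with h4 | h4
    · left; rw [h4, hj]; push_cast; ring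
    · right; rw [h4, hj]; push_cast; ring

/-- the number of elements of a fibre -/
noncomputable def fib (s : U → W) (w : W) : ℕ := Nat.card {x : U // s x = w}

theorem sum_fib [DecidableEq W] (s : U → W) (g : W → ℤ) : ∑ x, g (s x) = ∑ w, (fib s w : ℤ) * g w := by
  classical
  rw [← Finset.sum_fiberwise_of_maps_to (s := Finset.univ) (t := Finset.univ) (g := s)
    (fun x _ => Finset.mem_univ _)]
  refine Finset.sum_congr rfl fun w _ => ?_
  rw [Finset.sum_congr rfl (g := fun _ => g w) (fun x hx => by rw [(Finset.mem_filter.mp hx).2]),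
    Finset.sum_const, nsmul_eq_mul, fib, Nat.card_eq_fintype_card, Fintype.card_subtype]

theorem fib_zero {s : U → W} (h0 : s 0 = 0) (ha : ∀ x, s x = 0 → x = 0) : fib s 0 = 1 := by
  rw [fib, Nat.card_eq_one_iff_unique]
  exact ⟨⟨fun x y => Subtype.ext ((ha _ x.2).trans (ha _ y.2).symm)⟩, ⟨⟨0, h0⟩⟩⟩

theorem G_eq_of_fib {s : U → W} (h0 : s 0 = 0) (ha : ∀ x, s x = 0 → x = 0) {f : ℕ}
    (hf : ∀ w, w ≠ 0 → fib s w = f) {χ : W →ₗ[ZMod 2] ZMod 2} (hχ : χ ≠ 0) : G s χ = 1 - f := by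
  classical
  have h1 : G s χ = ∑ w, (fib s w : ℤ) * e (χ w) := sum_fib s (fun w => e (χ w))
  have h2 : ∑ w, e (χ w) = 0 := by
    rcases sum_e χ.toAddMonoidHom with ⟨h3, -⟩ | ⟨-, h3⟩
    · exact absurd (LinearMap.ext fun x => DFunLike.congr_fun h3 x) hχ
    · exact h3
  have h3 : ∀ w, (fib s w : ℤ) * e (χ w) = f * e (χ w) + (if w = 0 then (1 - f : ℤ) else 0) := by
    intro w
    by_cases hw : w = 0
    · subst hw
      rw [fib_zero h0 ha, if_pos rfl, map_zero, e_zero]; push_cast; ring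
    · rw [hf w hw, if_neg hw, add_zero]
  rw [h1, Finset.sum_congr rfl (fun w _ => h3 w), Finset.sum_add_distrib, ← Finset.mul_sum, h2]
  simp

theorem card_of_fib {s : U → W} (h0 : s 0 = 0) (ha : ∀ x, s x = 0 → x = 0) {f : ℕ}
    (hf : ∀ w, w ≠ 0 → fib s w = f) : (Nat.card U : ℤ) = 1 + f * (Nat.card W - 1) := by
  classical
  have h1 : ∑ x : U, (1 : ℤ) = ∑ w, (fib s w : ℤ) * 1 := sum_fib s (fun _ => 1)
  have h3 : ∀ w, (fib s w : ℤ) * 1 = f + (if w = 0 then (1 - f : ℤ) else 0) := by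
    intro w
    by_cases hw : w = 0
    · subst hw
      rw [fib_zero h0 ha, if_pos rfl]; push_cast; ring
    · rw [hf w hw, if_neg hw, add_zero]; ring
  rw [Finset.sum_congr rfl (fun w _ => h3 w), Finset.sum_add_distrib] at h1
  simp at h1
  rw [Nat.card_eq_fintype_card, Nat.card_eq_fintype_card, h1]
  ring

/-- `|U| = |W|` or `|U| = |W|²`. -/
theorem card_eq {s : U → W} (h : IsQ s) (ha : ∀ x, s x = 0 → x = 0) {f : ℕ}
    (hf : ∀ w, w ≠ 0 → fib s w = f) (hf0 : f ≠ 0) (hW : Nontrivial W) :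
    f = 1 ∨ (Nat.card U = Nat.card W ^ 2 ∧ f = Nat.card W + 1) := by
  obtain ⟨w, hw⟩ := exists_ne (0 : W)
  obtain ⟨χ, hχw⟩ : ∃ χ : W →ₗ[ZMod 2] ZMod 2, χ w ≠ 0 := by
    by_contra hc
    push Not at hc
    exact hw ((Module.forall_dual_apply_eq_zero_iff (ZMod 2) w).mp hc)
  have hχ : χ ≠ 0 := by
    rintro rfl; exact hχw rfl
  have h1 := G_eq_of_fib h.zero ha hf hχ
  have h2 := card_of_fib h.zero ha hf
  set n := Module.finrank (ZMod 2) W with hn
  set m := Module.finrank (ZMod 2) U with hm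
  have hn0 : n ≠ 0 := by
    intro h0
    have h3 := card_pow W
    rw [← hn, h0, pow_zero] at h3
    have := Finite.one_lt_card (α := W)
    omega
  rcases G_cases h χ with h3 | ⟨j, h3 | h3⟩
  · left
    rw [h1] at h3
    omega
  · rw [h1] at h3
    have h4 : (0 : ℤ) < 2 ^ j := by positivity
    omega
  · right
    have h4 : (f : ℤ) = 1 + 2 ^ j := by rw [h1] at h3; linarith
    rw [h4, card_pow U, card_pow W, ← hm, ← hn] at h2
    push_cast at h2
    have h5 : (2 : ℤ) ^ m = 2 ^ n + 2 ^ j * (2 ^ n - 1) := by rw [h2]; ring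
    have h6 : (1 : ℤ) < 2 ^ n := one_lt_pow₀ (by norm_num) hn0
    have hmn : n < m := by
      by_contra hc
      push Not at hc
      have h7 : (2 : ℤ) ^ m ≤ 2 ^ n := pow_le_pow_right₀ (by norm_num) hc
      have h8 : (0 : ℤ) < 2 ^ j * (2 ^ n - 1) := mul_pos (by positivity) (by linarith)
      linarith
    have h7 : (2 : ℤ) ^ n * (2 ^ (m - n) - 1) = 2 ^ j * (2 ^ n - 1) := by
      have : (2 : ℤ) ^ m = 2 ^ n * 2 ^ (m - n) := by rw [← pow_add]; congr 1; omega
      rw [this] at h5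
      linarith
    have hodd : ∀ k : ℕ, k ≠ 0 → ¬ (2 : ℤ) ∣ 2 ^ k - 1 := by
      intro k hk hd
      have h8 : (2 : ℤ) ∣ 2 ^ k := dvd_pow_self _ hk
      have h9 : (2 : ℤ) ∣ 1 := by
        have := dvd_sub h8 hd
        simpa using this
      norm_num at h9
    have hjn : j = n := by
      rcases lt_trichotomy j n with hlt | heq | hgt
      · exfalso
        have h8 : (2 : ℤ) ^ (n - j) * (2 ^ (m - n) - 1) = 2 ^ n - 1 := by
          have h9 : (2 : ℤ) ^ n = 2 ^ j * 2 ^ (n - j) := by rw [← pow_add]; congr 1; omega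
          have h10 : (2 : ℤ) ^ j * (2 ^ (n - j) * (2 ^ (m - n) - 1)) = 2 ^ j * (2 ^ n - 1) := by
            rw [← mul_assoc, ← h9, h7]
          exact mul_left_cancel₀ (by positivity) h10
        apply hodd n hn0
        rw [← h8]
        exact Dvd.dvd.mul_right (dvd_pow_self _ (by omega)) _
      · exact heq
      · exfalso
        have h8 : (2 : ℤ) ^ (m - n) - 1 = 2 ^ (j - n) * (2 ^ n - 1) := by
          have h9 : (2 : ℤ) ^ j = 2 ^ n * 2 ^ (j - n) := by rw [← pow_add]; congr 1; omega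
          have h10 : (2 : ℤ) ^ n * (2 ^ (m - n) - 1) = 2 ^ n * (2 ^ (j - n) * (2 ^ n - 1)) := by
            rw [← mul_assoc, ← h9, h7]
          exact mul_left_cancel₀ (by positivity) h10
        apply hodd (m - n) (by omega)
        rw [h8]
        exact Dvd.dvd.mul_right (dvd_pow_self _ (by omega)) _
    rw [hjn] at h7 h4
    have h8 : (2 : ℤ) ^ (m - n) - 1 = 2 ^ n - 1 := mul_left_cancel₀ (by positivity) h7
    have h9 : (2 : ℕ) ^ (m - n) = 2 ^ n := by
      have : (2 : ℤ) ^ (m - n) = 2 ^ n := by linarith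
      exact_mod_cast this
    have h10 : m - n = n := Nat.pow_right_injective (le_refl 2) h9
    refine ⟨?_, ?_⟩
    · rw [card_pow U, card_pow W, ← hm, ← hn, ← pow_mul]
      congr 1; omega
    · rw [card_pow W, ← hn]
      have : (f : ℤ) = ((2 ^ n + 1 : ℕ) : ℤ) := by rw [h4]; push_cast; ring
      exact_mod_cast this

end

/-- orthogonal decompositions are trivial -/
theorem compl {U W : Type*} [AddCommGroup U] [AddCommGroup W] [Module (ZMod 2) U] [Module (ZMod 2) W]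
    [Fintype U] [Fintype W] {s : U → W} (h : IsQ s) (ha : ∀ x, s x = 0 → x = 0)
    (hG : ∀ χ : W →ₗ[ZMod 2] ZMod 2, χ ≠ 0 → G s χ = - Nat.card W) (hW : Nontrivial W)
    (hU : Nat.card U = Nat.card W ^ 2)
    (U₀ U₁ : Submodule (ZMod 2) U) (hc : IsCompl U₀ U₁) (ho : ∀ x ∈ U₀, ∀ y ∈ U₁, b s x y = 0) :
    U₀ = ⊥ ∨ U₁ = ⊥ := by
  classical
  have hQ0 : IsQ (fun x : U₀ => s x) := ⟨h.zero, fun x y z => h.add_left x y z⟩
  have hQ1 : IsQ (fun x : U₁ => s x) := ⟨h.zero, fun x y z => h.add_left x y z⟩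
  have hprod : ∀ χ : W →ₗ[ZMod 2] ZMod 2, G s χ = G (fun x : U₀ => s x) χ * G (fun x : U₁ => s x) χ := by
    intro χ
    have h1 : G s χ = ∑ p : U₀ × U₁, e (χ (s (p.1 + p.2))) :=
      (Equiv.sum_comp (Submodule.prodEquivOfIsCompl U₀ U₁ hc).toEquiv (fun a => e (χ (s a)))).symm
    rw [h1, Fintype.sum_prod_type, G, G, Finset.sum_mul_sum]
    refine Finset.sum_congr rfl fun x _ => Finset.sum_congr rfl fun y _ => ?_
    rw [s_add s, ho x x.2 y y.2, zero_add, map_add, e_add]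
  set n := Module.finrank (ZMod 2) W with hn
  have hWc := card_pow W
  rw [← hn] at hWc
  have hU01 : Nat.card U₀ * Nat.card U₁ = Nat.card U := by
    rw [← Nat.card_prod]
    exact Nat.card_congr (Submodule.prodEquivOfIsCompl U₀ U₁ hc).toEquiv
  set a := Module.finrank (ZMod 2) U₀ with hadef
  have hU0c : Nat.card U₀ = 2 ^ a := card_pow U₀
  -- `G₀² = |U₀|`
  have hG0 : ∀ χ : W →ₗ[ZMod 2] ZMod 2, χ ≠ 0 → G (fun x : U₀ => s x) χ ^ 2 = Nat.card U₀ := by
    intro χ hχ
    have h1 := hG χ hχ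
    rw [hprod] at h1
    have hne : G (fun x : U₀ => s x) χ * G (fun x : U₁ => s x) χ ≠ 0 := by
      rw [h1]
      have : (Nat.card W : ℤ) ≠ 0 := by rw [hWc]; positivity
      simpa using this
    have h2 := (G_sq hQ0 χ).resolve_left (pow_ne_zero 2 (left_ne_zero_of_mul hne))
    have h3 := (G_sq hQ1 χ).resolve_left (pow_ne_zero 2 (right_ne_zero_of_mul hne))
    have h4 : (Nat.card U₀ * Nat.card (Rad hQ0 χ)) * (Nat.card U₁ * Nat.card (Rad hQ1 χ)) =
        Nat.card U₀ * Nat.card U₁ := by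
      have h5 : ((Nat.card U₀ * Nat.card (Rad hQ0 χ)) * (Nat.card U₁ * Nat.card (Rad hQ1 χ)) : ℤ) =
          (Nat.card W : ℤ) ^ 2 := by
        rw [← h2, ← h3, ← mul_pow, h1, neg_sq]
      have h6 : ((Nat.card U₀ * Nat.card (Rad hQ0 χ)) * (Nat.card U₁ * Nat.card (Rad hQ1 χ))) =
          (Nat.card W) ^ 2 := by exact_mod_cast h5
      rw [h6, hU01, hU]
    have h5 : Nat.card (Rad hQ0 χ) * Nat.card (Rad hQ1 χ) = 1 := by
      have h6 : (Nat.card U₀ * Nat.card U₁) * (Nat.card (Rad hQ0 χ) * Nat.card (Rad hQ1 χ)) =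
          (Nat.card U₀ * Nat.card U₁) * 1 := by
        calc (Nat.card U₀ * Nat.card U₁) * (Nat.card (Rad hQ0 χ) * Nat.card (Rad hQ1 χ))
            = (Nat.card U₀ * Nat.card (Rad hQ0 χ)) * (Nat.card U₁ * Nat.card (Rad hQ1 χ)) := by ring
          _ = _ := by rw [h4, mul_one]
      exact Nat.eq_of_mul_eq_mul_left (Nat.mul_pos Nat.card_pos Nat.card_pos) h6
    have h6 : Nat.card (Rad hQ0 χ) = 1 := Nat.eq_one_of_mul_eq_one_right h5
    rw [h2, h6]; simp
  -- the sum over all functionals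
  have hfin : Finite (W →ₗ[ZMod 2] ZMod 2) := Finite.of_injective (fun f => (f : W → ZMod 2)) DFunLike.coe_injective
  have := Fintype.ofFinite (W →ₗ[ZMod 2] ZMod 2)
  have hcD : Fintype.card (W →ₗ[ZMod 2] ZMod 2) = 2 ^ n := by
    rw [← Nat.card_eq_fintype_card, card_pow (W →ₗ[ZMod 2] ZMod 2)]
    congr 1
    exact Subspace.dual_finrank_eq
  have hsum : ∑ χ : W →ₗ[ZMod 2] ZMod 2, G (fun x : U₀ => s x) χ = 2 ^ n := by
    simp only [G]
    rw [Finset.sum_comm]
    have h1 : ∀ x : U₀, ∑ χ : W →ₗ[ZMod 2] ZMod 2, e (χ (s x)) = if x = 0 then (2 : ℤ) ^ n else 0 := by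
      intro x
      let φ : (W →ₗ[ZMod 2] ZMod 2) →+ ZMod 2 := AddMonoidHom.mk' (fun χ => χ (s x)) (fun _ _ => rfl)
      rcases sum_e φ with ⟨h2, h3⟩ | ⟨h2, h3⟩
      · have h4 : s x = 0 := (Module.forall_dual_apply_eq_zero_iff (ZMod 2) (s x)).mp
          (fun χ => DFunLike.congr_fun h2 χ)
        have h5 : x = 0 := Subtype.ext (ha _ h4)
        rw [if_pos h5]
        have h6 : ∑ χ : W →ₗ[ZMod 2] ZMod 2, e (χ (s x)) = Fintype.card (W →ₗ[ZMod 2] ZMod 2) := h3
        rw [h6, hcD]; push_cast; rfl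
      · rw [if_neg]
        · exact h3
        · rintro rfl
          apply h2
          ext χ
          show χ (s ((0 : U₀) : U)) = 0
          rw [Submodule.coe_zero, h.zero, map_zero]
    rw [Finset.sum_congr rfl (fun x _ => h1 x)]
    simp
  obtain ⟨w, hw⟩ := exists_ne (0 : W)
  obtain ⟨χ₀, hχw⟩ : ∃ χ : W →ₗ[ZMod 2] ZMod 2, χ w ≠ 0 := by
    by_contra hcc
    push Not at hcc
    exact hw ((Module.forall_dual_apply_eq_zero_iff (ZMod 2) w).mp hcc)
  have hχ₀ : χ₀ ≠ 0 := by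
    rintro rfl; exact hχw rfl
  have hj : ∃ j, a = 2 * j := by
    have h1 := hG0 χ₀ hχ₀
    rw [hU0c] at h1
    have h2 : (G (fun x : U₀ => s x) χ₀).natAbs ^ 2 = 2 ^ a := by
      have h3 : ((G (fun x : U₀ => s x) χ₀).natAbs ^ 2 : ℤ) = (2 ^ a : ℕ) := by
        rw [Int.natAbs_sq, h1]
      exact_mod_cast h3
    have h3 : (G (fun x : U₀ => s x) χ₀).natAbs ∣ 2 ^ a := by
      rw [← h2]; exact dvd_pow_self _ two_ne_zero
    obtain ⟨j, -, hj⟩ := (Nat.dvd_prime_pow Nat.prime_two).mp h3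
    rw [hj, ← pow_mul] at h2
    exact ⟨j, by rw [← Nat.pow_right_injective (le_refl 2) h2]; ring⟩
  obtain ⟨j, hj⟩ := hj
  have hG0' : ∀ χ : W →ₗ[ZMod 2] ZMod 2, χ ≠ 0 → (2 : ℤ) ^ (j + 1) ∣ G (fun x : U₀ => s x) χ - 2 ^ j := by
    intro χ hχ
    have h1 := hG0 χ hχ
    rw [hU0c, hj] at h1
    have h2 : G (fun x : U₀ => s x) χ ^ 2 = (2 ^ j) ^ 2 := by rw [h1]; push_cast; ring
    rcases sq_eq_sq_iff_eq_or_eq_neg.mp h2 with h3 | h3
    · rw [h3, sub_self]; exact dvd_zero _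
    · rw [h3]; exact ⟨-1, by ring⟩
  have hzero : G (fun x : U₀ => s x) 0 = 2 ^ a := by
    have : G (fun x : U₀ => s x) 0 = Nat.card U₀ := by
      rw [G, Nat.card_eq_fintype_card]; simp [e_zero]
    rw [this, hU0c]; push_cast; rfl
  have hdiv : (2 : ℤ) ^ (j + 1) ∣ ∑ χ ∈ Finset.univ.erase (0 : W →ₗ[ZMod 2] ZMod 2),
      (G (fun x : U₀ => s x) χ - 2 ^ j) :=
    Finset.dvd_sum fun χ hχ => hG0' χ (Finset.ne_of_mem_erase hχ)
  have hsum2 : ∑ χ ∈ Finset.univ.erase (0 : W →ₗ[ZMod 2] ZMod 2),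
      (G (fun x : U₀ => s x) χ - 2 ^ j) = 2 ^ n - 2 ^ a - (2 ^ n - 1) * 2 ^ j := by
    rw [Finset.sum_sub_distrib, Finset.sum_const, Finset.card_erase_of_mem (Finset.mem_univ _),
      Finset.card_univ, hcD]
    have h1 := Finset.add_sum_erase Finset.univ (fun χ => G (fun x : U₀ => s x) χ)
      (Finset.mem_univ (0 : W →ₗ[ZMod 2] ZMod 2))
    rw [hsum, hzero] at h1
    have h2 : ((2 ^ n - 1 : ℕ) : ℤ) = 2 ^ n - 1 := by
      rw [Nat.cast_sub Nat.one_le_two_pow]; push_cast; rfl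
    rw [nsmul_eq_mul, h2]
    linarith
  rw [hsum2] at hdiv
  have hsub : ∀ (A : Submodule (ZMod 2) U), Nat.card A = 1 → A = ⊥ := by
    intro A hA
    have h1 := (Nat.card_eq_one_iff_unique.mp hA).1
    rw [Submodule.eq_bot_iff]
    intro x hx
    exact congrArg Subtype.val (Subsingleton.elim (⟨x, hx⟩ : A) 0)
  rcases Nat.eq_zero_or_pos j with hj0 | hj0
  · left
    apply hsub
    rw [hU0c, hj, hj0, mul_zero, pow_zero]
  · rcases lt_or_ge j n with hjn | hjn
    · exfalso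
      have h1 : (2 : ℤ) ^ (j + 1) ∣ 2 ^ n := pow_dvd_pow _ hjn
      have h2 : (2 : ℤ) ^ (j + 1) ∣ 2 ^ a := pow_dvd_pow _ (by omega)
      have h3 : (2 : ℤ) ^ (j + 1) ∣ 2 ^ n * 2 ^ j := Dvd.dvd.mul_right h1 _
      have h4 : (2 : ℤ) ^ (j + 1) ∣ 2 ^ j := by
        have h5 := dvd_sub (dvd_sub h1 h2) h3
        have h6 := dvd_sub hdiv h5
        have h7 : (2 : ℤ) ^ n - 2 ^ a - (2 ^ n - 1) * 2 ^ j - (2 ^ n - 2 ^ a - 2 ^ n * 2 ^ j) = 2 ^ j := by ring
        rwa [h7] at h6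
      have h5 : (2 : ℤ) ^ (j + 1) ≤ 2 ^ j := Int.le_of_dvd (by positivity) h4
      have h6 : (2 : ℤ) ^ j < 2 ^ (j + 1) := pow_lt_pow_right₀ (by norm_num) (by omega)
      linarith
    · right
      apply hsub
      have h1 : Nat.card U₀ * Nat.card U₁ = 2 ^ (2 * n) := by
        rw [hU01, hU, hWc, ← pow_mul]; congr 1; omega
      have h2 : 2 ^ (2 * n) ≤ Nat.card U₀ := by
        rw [hU0c]; exact Nat.pow_le_pow_right (by norm_num) (by omega)
      have h3 : 0 < Nat.card U₁ := Nat.card_pos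
      have h4 : 0 < 2 ^ (2 * n) := by positivity
      by_contra h5
      have h6 : 2 ≤ Nat.card U₁ := by omega
      have h7 : 2 ^ (2 * n) * 2 ≤ Nat.card U₀ * Nat.card U₁ := Nat.mul_le_mul h2 h6
      omega

end Cfsg.Agent.H453.Quad
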