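import Mathlib
import Cfsg.Agent.H453.QuadField

/-!
# The multiplicative form of `H453.QuadField`
-/

set_option autoImplicit false

namespace Cfsg.Agent.H453.Quad

/-- Let `s : U → W` be an anisotropic quadratic map of elementary abelian `2`-groups (written
multiplicatively), all fibres over `w ≠ 1` of the same order `f`. Then `f = 1`, or every `t`-group `P`
(`t` odd) of automorphisms of `U` preserving `s` has order dividing `|W| + 1` and is centralized by the
automorphisms of `U` which normalize it and whose order is prime to `2 n`, `|W| = 2 ^ n`. -/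
theorem mult_version {U W : Type*} [CommGroup U] [CommGroup W] [Finite U] [Finite W]
    (hU : ∀ x : U, x * x = 1) (hW : ∀ w : W, w * w = 1) (s : U → W) (hs1 : s 1 = 1)
    (hb : ∀ x y z, s (x * y * z) * s (x * y) * s z = (s (x * z) * s x * s z) * (s (y * z) * s y * s z))
    (ha : ∀ x, s x = 1 → x = 1) (n : ℕ) (hn : n ≠ 0) (hcW : Nat.card W = 2 ^ n) (f : ℕ)
    (hf : ∀ w, w ≠ 1 → Nat.card {x // s x = w} = f) (hf0 : f ≠ 0) :
    f = 1 ∨ ∀ (t : ℕ) [Fact t.Prime] (_ : t ≠ 2) (P : Subgroup (MulAut U)) (_ : IsPGroup t P)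
      (_ : ∀ g ∈ P, ∀ x, s (g x) = s x), Nat.card P ∣ 2 ^ n + 1 ∧
      ∀ (v : MulAut U) (_ : ∀ g ∈ P, v * g * v⁻¹ ∈ P) (k : ℕ) (_ : v ^ k = 1)
        (_ : k.Coprime (2 * n)), ∀ g ∈ P, v * g = g * v := by
  classical
  letI mU : Module (ZMod 2) (Additive U) := AddCommGroup.zmodModule (n := 2) (fun x => by
    rw [two_smul]; exact hU x.toMul)
  letI mW : Module (ZMod 2) (Additive W) := AddCommGroup.zmodModule (n := 2) (fun x => by
    rw [two_smul]; exact hW x.toMul)
  letI := Fintype.ofFinite (Additive U)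
  letI := Fintype.ofFinite (Additive W)
  let s' : Additive U → Additive W := fun x => Additive.ofMul (s x.toMul)
  have hq : IsQ s' := by
    refine ⟨hs1, ?_⟩
    intro x y z
    have h1 := hb x.toMul y.toMul z.toMul
    exact h1
  have ha' : ∀ x, s' x = 0 → x = 0 := fun x hx => ha x.toMul hx
  have hf' : ∀ w, w ≠ 0 → fib s' w = f := fun w hw => hf w.toMul hw
  have hcW' : Nat.card (Additive W) = 2 ^ n := hcW
  have hnt : Nontrivial (Additive W) := by
    have h1 : 1 < Nat.card (Additive W) := by rw [hcW']; exact Nat.one_lt_two_pow hn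
    exact Finite.one_lt_card_iff_nontrivial.mp h1
  rcases card_eq hq ha' hf' hf0 hnt with h1 | ⟨h1, h2⟩
  · left; exact h1
  right
  intro t ht' ht P hP hPs
  have H : Hyp s' n :=
    { q := hq, an := ha', n0 := hn, cardW := hcW', cardU := h1
      fib := by intro w hw; rw [hf' w hw, h2, hcW'] }
  -- the homomorphism to the units
  let j₀ : MulAut U →* Module.End (ZMod 2) (Additive U) :=
    { toFun := fun g => AddMonoidHom.toZModLinearMap 2 (MonoidHom.toAdditive g.toMonoidHom)
      map_one' := by ext x; rfl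
      map_mul' := fun g g' => by ext x; rfl }
  let j : MulAut U →* (Module.End (ZMod 2) (Additive U))ˣ := MonoidHom.toHomUnits j₀
  have hj : ∀ (g : MulAut U) (x : Additive U), ((j g : (Module.End (ZMod 2) (Additive U))ˣ) :
      Module.End (ZMod 2) (Additive U)) x = Additive.ofMul (g x.toMul) := fun _ _ => rfl
  have hji : Function.Injective j := by
    intro g g' hgg
    ext x
    have h3 := hj g (Additive.ofMul x)
    rw [hgg, hj] at h3
    exact (Additive.ofMul.injective h3).symm
  have hP' : IsPGroup t (P.map j) := hP.map j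
  have hPs' : ∀ g ∈ P.map j, ∀ x, s' ((g : Module.End (ZMod 2) (Additive U)) x) = s' x := by
    rintro _ ⟨g, hg, rfl⟩ x
    rw [hj]
    exact hPs g hg x.toMul
  have hcard : Nat.card (P.map j) = Nat.card P := Subgroup.card_map_of_injective hji
  refine ⟨?_, ?_⟩
  · have := (H.card_dvd ht (P.map j) hP' hPs').2
    rwa [hcard] at this
  · intro v hv k hvk hk g hg
    have h3 := H.commute_of_norm ht (P.map j) hP' hPs' (j v) (by
      rintro _ ⟨g, hg, rfl⟩
      exact ⟨v * g * v⁻¹, hv g hg, by rw [map_mul, map_mul, map_inv]⟩) (k := k)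
      (by rw [← map_pow, hvk, map_one]) hk (j g) ⟨g, hg, rfl⟩
    rw [← map_mul, ← map_mul] at h3
    exact hji h3

end Cfsg.Agent.H453.Quad
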