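import Mathlib
import Cfsg.Agent.S0012
import Cfsg.Agent.Lib.CoprimeStab

/-!
# Minimal invariant subgroups of a `2`-group on which an odd order group acts nontrivially
-/

set_option autoImplicit false

namespace Cfsg.Agent.H453.Suz

open Subgroup
open scoped commutatorElement

theorem le_normalizer_of_char {H : Type*} [Group H] {T N : Subgroup H} (hNT : N ≤ normalizer (T : Set H))
    (K : Subgroup T) (hK : K.Characteristic) : N ≤ normalizer ((K.map T.subtype : Subgroup H) : Set H) := by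
  intro n hn
  have key : ∀ m ∈ normalizer (T : Set H), ∀ x ∈ K.map T.subtype, m * x * m⁻¹ ∈ K.map T.subtype := by
    rintro m hm _ ⟨k, hk, rfl⟩
    let e : MulAut T := T.normalizerMonoidHom ⟨m, hm⟩
    have h1 : e k ∈ K := by
      rw [← Subgroup.characteristic_iff_map_eq.mp hK e]
      exact ⟨k, hk, rfl⟩
    exact ⟨e k, h1, rfl⟩
  rw [mem_normalizer_iff]
  intro x
  constructor
  · exact key n (hNT hn) x
  · intro hx
    have h1 := key n⁻¹ (inv_mem (hNT hn)) _ hx
    have h2 : n⁻¹ * (n * x * n⁻¹) * n⁻¹⁻¹ = x := by group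
    rwa [h2] at h1

theorem frattini_ne_top {G : Type*} [Group G] [Finite G] [Nontrivial G] : frattini G ≠ ⊤ := by
  intro h
  rcases eq_top_or_exists_le_coatom (⊥ : Subgroup G) with h1 | ⟨K, hK, -⟩
  · exact bot_ne_top h1
  · have := frattini_le_coatom hK
    rw [h] at this
    exact hK.1 (top_le_iff.mp this)

/-- structure of a minimal invariant subgroup -/
theorem structure_T {H : Type*} [Group H] [Finite H] (T L N : Subgroup H) (hT2 : IsPGroup 2 T)
    (hT : T ≠ ⊥) (hLN : L ≤ N) (hNT : N ≤ normalizer (T : Set H)) (hNL : N ≤ normalizer (L : Set H))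
    (hcomm : ⁅T, L⁆ = T)
    (hmin : ∀ X : Subgroup H, X < T → N ≤ normalizer (X : Set H) → ∀ x ∈ X, ∀ l ∈ L, l * x = x * l) :
    (∀ c ∈ T, (∀ l ∈ L, l * c = c * l) → ∀ x ∈ T, x * c = c * x) ∧
    (∀ x ∈ T, ∀ y ∈ T, (x * y * x⁻¹ * y⁻¹) * (x * y * x⁻¹ * y⁻¹) = 1 ∧
      ∀ l ∈ L, l * (x * y * x⁻¹ * y⁻¹) = (x * y * x⁻¹ * y⁻¹) * l) ∧
    (∀ x ∈ T, (x * x) * (x * x) = 1) := by
  have hntT : Nontrivial T := (Subgroup.nontrivial_iff_ne_bot T).mpr hT
  -- the Frattini subgroup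
  set Φ : Subgroup H := (frattini T).map T.subtype with hΦ
  have hΦT : Φ < T := by
    refine lt_of_le_of_ne (Subgroup.map_subtype_le _) ?_
    intro h
    have h1 : frattini T = ⊤ := by
      rw [eq_top_iff]
      intro x _
      have h2 : (x : H) ∈ Φ := by rw [h]; exact x.2
      obtain ⟨y, hy, hyx⟩ := h2
      have : y = x := Subtype.ext hyx
      rw [← this]; exact hy
    exact frattini_ne_top h1
  have hΦL : ∀ x ∈ Φ, ∀ l ∈ L, l * x = x * l :=
    hmin Φ hΦT (le_normalizer_of_char hNT _ inferInstance)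
  obtain ⟨hΦc, hΦp⟩ := S0012.result (G := T) 2 hT2
  have hcΦ : ∀ x ∈ T, ∀ y ∈ T, x * y * x⁻¹ * y⁻¹ ∈ Φ := by
    intro x hx y hy
    refine ⟨⁅(⟨x, hx⟩ : T), (⟨y, hy⟩ : T)⁆, hΦc ?_, rfl⟩
    rw [_root_.commutator_def]
    exact Subgroup.commutator_mem_commutator (Subgroup.mem_top _) (Subgroup.mem_top _)
  have hsΦ : ∀ x ∈ T, x * x ∈ Φ := by
    intro x hx
    refine ⟨(⟨x, hx⟩ : T) ^ 2, hΦp _, ?_⟩
    show ((⟨x, hx⟩ : T) ^ 2 : T).1 = x * x
    rw [Subgroup.coe_pow, pow_two]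
  -- `C_T(L)` is central
  have hcent : ∀ c ∈ T, (∀ l ∈ L, l * c = c * l) → ∀ x ∈ T, x * c = c * x := by
    set C : Subgroup H := T ⊓ centralizer (L : Set H) with hC
    have h1 : ⁅⁅L, C⁆, T⁆ = ⊥ := by
      have h2 : ⁅L, C⁆ = ⊥ := by
        rw [Subgroup.commutator_eq_bot_iff_le_centralizer]
        intro l hl
        rw [mem_centralizer_iff]
        intro c hc
        exact (mem_centralizer_iff.mp hc.2 l hl).symm
      rw [h2, Subgroup.commutator_bot_left]
    have h2 : ⁅⁅C, T⁆, L⁆ = ⊥ := by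
      rw [Subgroup.commutator_eq_bot_iff_le_centralizer]
      have h3 : ⁅C, T⁆ ≤ Φ := by
        rw [Subgroup.commutator_le]
        intro c hc x hx
        exact hcΦ c hc.1 x hx
      refine h3.trans ?_
      intro x hx
      rw [mem_centralizer_iff]
      intro l hl
      exact hΦL x hx l hl
    have h3 : ⁅⁅T, L⁆, C⁆ = ⊥ := Subgroup.commutator_commutator_eq_bot_of_rotate h1 h2
    rw [hcomm, Subgroup.commutator_eq_bot_iff_le_centralizer] at h3
    intro c hc hcl x hx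
    have h4 : c ∈ C := ⟨hc, mem_centralizer_iff.mpr hcl⟩
    exact (mem_centralizer_iff.mp (h3 hx) c h4).symm
  have hΦcent : ∀ c ∈ Φ, ∀ x ∈ T, x * c = c * x := fun c hc x hx =>
    hcent c (hΦT.le hc) (hΦL c hc) x hx
  -- squares of commutators
  have hcsq : ∀ x ∈ T, ∀ y ∈ T, (x * y * x⁻¹ * y⁻¹) * (x * y * x⁻¹ * y⁻¹) = 1 := by
    intro x hx y hy
    set c := x * y * x⁻¹ * y⁻¹ with hc
    have hcx : x * c = c * x := hΦcent c (hcΦ x hx y hy) x hx
    have h1 : x * y = c * (y * x) := by rw [hc]; group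
    clear_value c
    have h2 : (x * x) * y = c * c * (y * (x * x)) := by
      calc (x * x) * y = x * (x * y) := by rw [mul_assoc]
        _ = x * c * (y * x) := by rw [h1, mul_assoc]
        _ = c * (x * y) * x := by rw [hcx]; simp only [mul_assoc]
        _ = c * c * (y * (x * x)) := by rw [h1]; simp only [mul_assoc]
    have h3 : y * (x * x) = (x * x) * y := hΦcent _ (hsΦ x hx) y hy
    rw [h3] at h2
    exact (mul_eq_right.mp h2.symm)
  refine ⟨hcent, fun x hx y hy => ⟨hcsq x hx y hy, hΦL _ (hcΦ x hx y hy)⟩, ?_⟩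
  -- the derived subgroup has exponent two
  have hD : ∀ d ∈ ⁅T, T⁆, d ∈ Φ ∧ d * d = 1 := by
    intro d hd
    rw [Subgroup.commutator_def] at hd
    induction hd using Subgroup.closure_induction with
    | mem d hd =>
      obtain ⟨x, hx, y, hy, rfl⟩ := hd
      exact ⟨hcΦ x hx y hy, hcsq x hx y hy⟩
    | one => exact ⟨one_mem _, one_mul 1⟩
    | mul a b _ _ ha hb =>
      refine ⟨mul_mem ha.1 hb.1, ?_⟩
      have h1 : b * a = a * b := hΦcent a ha.1 b (hΦT.le hb.1)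
      calc a * b * (a * b) = a * (b * a) * b := by simp only [mul_assoc]
        _ = (a * a) * (b * b) := by rw [h1]; simp only [mul_assoc]
        _ = 1 := by rw [ha.2, hb.2, one_mul]
    | inv a _ ha =>
      refine ⟨inv_mem ha.1, ?_⟩
      rw [← mul_inv_rev, ha.2, inv_one]
  have hS : ∀ x ∈ T, x ∈ T ∧ x * x ∈ ⁅T, T⁆ := by
    have hTle : ∀ x ∈ ⁅T, L⁆, x ∈ T ∧ x * x ∈ ⁅T, T⁆ := by
      intro x hx
      rw [Subgroup.commutator_def] at hx
      induction hx using Subgroup.closure_induction with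
      | mem u hu =>
        obtain ⟨x, hx, l, hl, rfl⟩ := hu
        have hz : l * x⁻¹ * l⁻¹ ∈ T := (mem_normalizer_iff.mp (hNT (hLN hl)) _).mp (inv_mem hx)
        have hu : ⁅x, l⁆ = x * (l * x⁻¹ * l⁻¹) := by rw [commutatorElement_def]; group
        rw [hu]
        set z := l * x⁻¹ * l⁻¹ with hzd
        refine ⟨mul_mem hx hz, ?_⟩
        have hzz : z * z = (x * x)⁻¹ := by
          have h1 : l * (x * x)⁻¹ = (x * x)⁻¹ * l := hΦL _ (inv_mem (hsΦ x hx)) l hl
          calc z * z = l * (x * x)⁻¹ * l⁻¹ := by rw [hzd]; group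
            _ = (x * x)⁻¹ := by rw [h1]; group
        have h2 : x * z * (x * z) = (x * x) * (x⁻¹ * z * x⁻¹⁻¹ * z⁻¹) * (z * z) := by group
        have h3 : x⁻¹ * z * x⁻¹⁻¹ * z⁻¹ ∈ ⁅T, T⁆ := Subgroup.commutator_mem_commutator (inv_mem hx) hz
        have h4 : (x * x) * (x⁻¹ * z * x⁻¹⁻¹ * z⁻¹) = (x⁻¹ * z * x⁻¹⁻¹ * z⁻¹) * (x * x) :=
          hΦcent _ (hD _ h3).1 _ (mul_mem hx hx)
        rw [h2, h4, hzz, mul_assoc, mul_inv_cancel, mul_one]
        exact h3
      | one => exact ⟨one_mem _, by rw [one_mul]; exact one_mem _⟩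
      | mul a b _ _ ha hb =>
        refine ⟨mul_mem ha.1 hb.1, ?_⟩
        have h2 : a * b * (a * b) = (a * a) * (a⁻¹ * b * a⁻¹⁻¹ * b⁻¹) * (b * b) := by group
        rw [h2]
        exact mul_mem (mul_mem ha.2 (Subgroup.commutator_mem_commutator (inv_mem ha.1) hb.1)) hb.2
      | inv a _ ha =>
        refine ⟨inv_mem ha.1, ?_⟩
        rw [← mul_inv_rev]
        exact inv_mem ha.2
    rwa [hcomm] at hTle
  intro x hx
  exact (hD _ (hS x hx).2).2

end Cfsg.Agent.H453.Suz
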