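import Mathlib
import Cfsg.Agent.H453.QuadMul
import Cfsg.Agent.H453.SuzStruct

/-!
# Odd order groups centralizing the involutions of a `2`-group whose involutions are fused

`lemmaB`: `Q` a normal `2`-subgroup of `H` with `C_H(Q) ≤ Q`, all involutions of `H` lie in `Z(Q)` and are
conjugate, `|V| = 2 ^ n ≥ 4`, `V` the set of solutions of `x² = 1`. `L` a `t`-group (`t` odd) centralizing
`V`, `H = Q N`, `L ≤ N ≤ N_H(L)`. There is an `N`-invariant `T ≤ Q` not centralized by `L` such that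
`[y, l]` centralizes `T` for all `l ∈ L` and `y ∈ N` of order prime to `2 n`; moreover `t ∣ 2 ^ n + 1`.
-/

set_option autoImplicit false

namespace Cfsg.Agent.H453.Suz

open Subgroup
open scoped commutatorElement

/-- the situation -/
structure Setup {H : Type*} [Group H] (Q V : Subgroup H) (n : ℕ) : Prop where
  Qn : Q.Normal
  Q2 : IsPGroup 2 Q
  CQ : centralizer (Q : Set H) ≤ Q
  memV : ∀ x, x ∈ V ↔ x * x = 1
  VQ : ∀ v ∈ V, ∀ q ∈ Q, q * v = v * q
  VleQ : V ≤ Q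
  trans : ∀ x ∈ V, ∀ y ∈ V, x ≠ 1 → y ≠ 1 → ∃ h : H, h * x * h⁻¹ = y
  cardV : Nat.card V = 2 ^ n
  n2 : 2 ≤ n

theorem le_normalizer_of {H : Type*} [Group H] {N X : Subgroup H}
    (h : ∀ n ∈ N, ∀ x ∈ X, n * x * n⁻¹ ∈ X) : N ≤ normalizer (X : Set H) := by
  intro n hn
  rw [mem_normalizer_iff]
  intro x
  constructor
  · exact h n hn x
  · intro hx
    have h1 := h n⁻¹ (inv_mem hn) _ hx
    have h2 : n⁻¹ * (n * x * n⁻¹) * n⁻¹⁻¹ = x := by group
    rwa [h2] at h1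

theorem conj_mem_commutator {H : Type*} [Group H] {N A B : Subgroup H} (hA : N ≤ normalizer (A : Set H))
    (hB : N ≤ normalizer (B : Set H)) : N ≤ normalizer ((⁅A, B⁆ : Subgroup H) : Set H) := by
  apply le_normalizer_of
  intro n hn x hx
  rw [Subgroup.commutator_def] at hx
  induction hx using Subgroup.closure_induction with
  | mem u hu =>
    obtain ⟨a, ha, b, hb, rfl⟩ := hu
    have h1 : n * ⁅a, b⁆ * n⁻¹ = ⁅n * a * n⁻¹, n * b * n⁻¹⁆ := by
      rw [commutatorElement_def, commutatorElement_def]; group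
    rw [h1]
    exact Subgroup.commutator_mem_commutator ((mem_normalizer_iff.mp (hA hn) _).mp ha)
      ((mem_normalizer_iff.mp (hB hn) _).mp hb)
  | one => rw [mul_one, mul_inv_cancel]; exact one_mem _
  | mul a b _ _ ha hb =>
    have : n * (a * b) * n⁻¹ = (n * a * n⁻¹) * (n * b * n⁻¹) := by group
    rw [this]; exact mul_mem ha hb
  | inv a _ ha =>
    have : n * a⁻¹ * n⁻¹ = (n * a * n⁻¹)⁻¹ := by group
    rw [this]; exact inv_mem ha

variable {H : Type*} [Group H] [Finite H] {Q V : Subgroup H} {n : ℕ}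

theorem Setup.conjV (S : Setup Q V n) (h : H) {v : H} (hv : v ∈ V) : h * v * h⁻¹ ∈ V := by
  rw [S.memV] at hv ⊢
  calc h * v * h⁻¹ * (h * v * h⁻¹) = h * (v * v) * h⁻¹ := by group
    _ = 1 := by rw [hv, mul_one, mul_inv_cancel]

theorem Setup.Vn (S : Setup Q V n) : V.Normal := ⟨fun _ hv h => S.conjV h hv⟩

/-- `T` acts: the quotient `T / V` -/
theorem lemmaB (S : Setup Q V n) {t : ℕ} [ht' : Fact t.Prime] (ht : t ≠ 2) (L N : Subgroup H)
    (hLN : L ≤ N) (hNL : N ≤ normalizer (L : Set H)) (hcov : ∀ h : H, ∃ q ∈ Q, q * h ∈ N)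
    (hLt : IsPGroup t L) (hLne : L ≠ ⊥) (hLV : ∀ l ∈ L, ∀ v ∈ V, l * v = v * l) :
    t ∣ 2 ^ n + 1 ∧ ∃ T : Subgroup H, N ≤ normalizer (T : Set H) ∧
      (¬ ∀ x ∈ T, ∀ l ∈ L, l * x = x * l) ∧
      ∀ y ∈ N, ∀ k : ℕ, y ^ k = 1 → k.Coprime (2 * n) → ∀ l ∈ L, ∀ x ∈ T,
        (y * l * y⁻¹ * l⁻¹) * x = x * (y * l * y⁻¹ * l⁻¹) := by
  classical
  have hQn := S.Qn
  have hVn := S.Vn
  -- `L` acts nontrivially on `Q`
  have hLcop2 : ∀ X : Subgroup H, IsPGroup 2 X → (Nat.card L).Coprime (Nat.card X) := by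
    intro X hX
    obtain ⟨a, ha⟩ := IsPGroup.iff_card.mp hLt
    obtain ⟨b, hb⟩ := IsPGroup.iff_card.mp hX
    rw [ha, hb]
    exact Nat.Coprime.pow a b ((Nat.coprime_primes ht'.out Nat.prime_two).mpr ht)
  have hQmem : ¬ ∀ x ∈ Q, ∀ l ∈ L, l * x = x * l := by
    intro hc
    have h1 : L ≤ Q := by
      refine le_trans ?_ S.CQ
      intro l hl
      rw [mem_centralizer_iff]
      intro x hx
      exact (hc x hx l hl).symm
    have h2 : L ⊓ Q = ⊥ := (Subgroup.disjoint_of_coprime_natCard (hLcop2 Q S.Q2)).eq_bot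
    rw [inf_eq_left.mpr h1] at h2
    exact hLne h2
  -- a minimal `T`
  obtain ⟨T, hTmin⟩ := (Set.toFinite {X : Subgroup H | X ≤ Q ∧ N ≤ normalizer (X : Set H) ∧
    ¬ ∀ x ∈ X, ∀ l ∈ L, l * x = x * l}).exists_minimal ⟨Q, le_rfl, le_normalizer_of_normal, hQmem⟩
  obtain ⟨⟨hTQ, hNT, hTL⟩, hTmin⟩ := hTmin
  have hmin : ∀ X : Subgroup H, X < T → N ≤ normalizer (X : Set H) → ∀ x ∈ X, ∀ l ∈ L, l * x = x * l := by
    intro X hX hNX
    by_contra hc
    exact hX.2 (hTmin ⟨hX.le.trans hTQ, hNX, hc⟩ hX.le)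
  have hT2 : IsPGroup 2 T := S.Q2.to_le hTQ
  have hTne : T ≠ ⊥ := by
    rintro rfl
    apply hTL
    intro x hx l _
    rw [mem_bot] at hx
    rw [hx, mul_one, one_mul]
  have hcommle : ⁅T, L⁆ ≤ T := le_normalizer_iff_commutator_le_left.mp (hLN.trans hNT)
  have hcomm : ⁅T, L⁆ = T := by
    by_contra hne
    have h1 := hmin ⁅T, L⁆ (lt_of_le_of_ne hcommle hne) (conj_mem_commutator hNT hNL)
    have h2 : L ≤ centralizer (T : Set H) :=
      Lib.CoprimeStab.le_centralizer_of_commutator_le (hLcop2 T hT2) hcommle le_rfl (by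
        intro l hl
        rw [mem_centralizer_iff]
        intro x hx
        exact (h1 x hx l hl).symm)
    apply hTL
    intro x hx l hl
    exact (mem_centralizer_iff.mp (h2 hl) x hx).symm
  obtain ⟨-, hc2, hsq⟩ := structure_T T L N hT2 hTne hLN hNT hNL hcomm hmin
  -- `V ≤ T`
  have hVT : V ≤ T := by
    have hnt : Nontrivial T := (Subgroup.nontrivial_iff_ne_bot T).mpr hTne
    obtain ⟨k, hk0, hk⟩ := hT2.nontrivial_iff_card.mp hnt
    have h2 : 2 ∣ Nat.card T := by rw [hk]; exact dvd_pow_self 2 hk0.ne'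
    obtain ⟨z, hz⟩ := exists_prime_orderOf_dvd_card' 2 h2
    have hz1 : (z : H) ≠ 1 := by
      intro h
      have : z = 1 := Subtype.ext h
      rw [this, orderOf_one] at hz
      norm_num at hz
    have hzV : (z : H) ∈ V := by
      rw [S.memV]
      have : z ^ 2 = 1 := by rw [← hz]; exact pow_orderOf_eq_one z
      rw [pow_two] at this
      exact congrArg Subtype.val this
    intro v hv
    by_cases hv1 : v = 1
    · rw [hv1]; exact one_mem _
    obtain ⟨h, hh⟩ := S.trans z hzV v hv hz1 hv1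
    obtain ⟨q, hq, hqh⟩ := hcov h
    have h3 : (q * h) * z * (q * h)⁻¹ = v := by
      calc (q * h) * z * (q * h)⁻¹ = q * (h * z * h⁻¹) * q⁻¹ := by group
        _ = q * v * q⁻¹ := by rw [hh]
        _ = v := by rw [S.VQ v hv q hq]; group
    rw [← h3]
    exact (mem_normalizer_iff.mp (hNT hqh) _).mp z.2
  have hVTc : ∀ v ∈ V, ∀ x ∈ T, x * v = v * x := fun v hv x hx => S.VQ v hv x (hTQ hx)
  have hcV : ∀ x ∈ T, ∀ y ∈ T, x * y * x⁻¹ * y⁻¹ ∈ V := fun x hx y hy => by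
    rw [S.memV]; exact (hc2 x hx y hy).1
  have hsV : ∀ x ∈ T, x * x ∈ V := fun x hx => by rw [S.memV]; exact hsq x hx
  -- `T ≠ V`
  obtain ⟨x₀, hx₀T, hx₀V⟩ : ∃ x ∈ T, x ∉ V := by
    by_contra hc
    push Not at hc
    apply hTL
    intro x hx l hl
    exact hLV l hl x (hc x hx)
  -- the quotient
  let V' : Subgroup T := V.subgroupOf T
  have hV'n : V'.Normal := inferInstance
  letI : CommGroup (T ⧸ V') :=
    { (inferInstance : Group (T ⧸ V')) with
      mul_comm := by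
        intro a b
        obtain ⟨x, rfl⟩ := QuotientGroup.mk'_surjective V' a
        obtain ⟨y, rfl⟩ := QuotientGroup.mk'_surjective V' b
        rw [← map_mul, ← map_mul]
        rw [QuotientGroup.mk'_eq_mk']
        refine ⟨(x * y)⁻¹ * (y * x), ?_, by group⟩
        show (((x * y)⁻¹ * (y * x) : T) : H) ∈ V
        have h1 := hcV (y : H)⁻¹ (inv_mem y.2) (x : H)⁻¹ (inv_mem x.2)
        have h2 : (y : H)⁻¹ * (x : H)⁻¹ * (y : H)⁻¹⁻¹ * (x : H)⁻¹⁻¹ = (((x * y)⁻¹ * (y * x) : T) : H) := by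
          push_cast; group
        rwa [h2] at h1 }
  letI : CommGroup V :=
    { (inferInstance : Group V) with
      mul_comm := fun a b => Subtype.ext (S.VQ b b.2 a (S.VleQ a.2)) }
  -- the squaring map
  let s : (T ⧸ V') → V := fun u => Quotient.liftOn' u (fun x => (⟨(x : H) * x, hsV x x.2⟩ : V)) (by
    intro x y hxy
    rw [QuotientGroup.leftRel_apply] at hxy
    have h1 : (x : H)⁻¹ * y ∈ V := hxy
    have h2 : (y : H) = x * ((x : H)⁻¹ * y) := by group
    have h3 := (S.memV _).mp h1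
    have h4 := hVTc _ h1 x x.2
    apply Subtype.ext
    show (x : H) * x = y * y
    set v := (x : H)⁻¹ * y with hv
    clear_value v
    rw [h2]
    calc (x : H) * x = x * (x * (v * v)) := by rw [h3, mul_one]
      _ = x * (v * x * v) := by rw [← h4]; simp only [mul_assoc]
      _ = x * v * (x * v) := by simp only [mul_assoc])
  have hsmk : ∀ x : T, s (QuotientGroup.mk' V' x) = ⟨(x : H) * x, hsV x x.2⟩ := fun _ => rfl
  -- the action
  have hcon : ∀ m : N, (V').map (T.normalizerMonoidHom ⟨m, hNT m.2⟩).toMonoidHom = V' := by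
    intro m
    apply le_antisymm
    · rintro _ ⟨x, hx, rfl⟩
      exact S.conjV m hx
    · intro x hx
      refine ⟨(T.normalizerMonoidHom ⟨m, hNT m.2⟩).symm x, ?_, ?_⟩
      · have h1 : (((T.normalizerMonoidHom ⟨m, hNT m.2⟩).symm x : T) : H) = (m : H)⁻¹ * x * m := by
          have h2 : T.normalizerMonoidHom ⟨m, hNT m.2⟩ ((T.normalizerMonoidHom ⟨m, hNT m.2⟩).symm x) = x :=
            (T.normalizerMonoidHom ⟨m, hNT m.2⟩).apply_symm_apply x
          have h3 : (m : H) * ((T.normalizerMonoidHom ⟨m, hNT m.2⟩).symm x : T) * (m : H)⁻¹ = x :=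
            congrArg Subtype.val h2
          rw [← h3]; group
        show (((T.normalizerMonoidHom ⟨m, hNT m.2⟩).symm x : T) : H) ∈ V
        rw [h1]
        have := S.conjV (m : H)⁻¹ (show (x : H) ∈ V from hx)
        rwa [inv_inv] at this
      · exact (T.normalizerMonoidHom ⟨m, hNT m.2⟩).apply_symm_apply x
  let ρ : N →* MulAut (T ⧸ V') :=
    { toFun := fun m => QuotientGroup.congr V' V' (T.normalizerMonoidHom ⟨m, hNT m.2⟩) (hcon m)
      map_one' := by
        ext u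
        obtain ⟨x, rfl⟩ := QuotientGroup.mk'_surjective V' u
        show QuotientGroup.mk' V' (T.normalizerMonoidHom ⟨(1 : N), _⟩ x) = QuotientGroup.mk' V' x
        congr 1
        apply Subtype.ext
        show (1 : H) * x * (1 : H)⁻¹ = x
        group
      map_mul' := by
        intro a b
        ext u
        obtain ⟨x, rfl⟩ := QuotientGroup.mk'_surjective V' u
        show QuotientGroup.mk' V' (T.normalizerMonoidHom ⟨(a * b : N), _⟩ x) =
          QuotientGroup.mk' V' (T.normalizerMonoidHom ⟨(a : N), _⟩ (T.normalizerMonoidHom ⟨(b : N), _⟩ x))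
        congr 1
        apply Subtype.ext
        show ((a * b : N) : H) * x * ((a * b : N) : H)⁻¹ = (a : H) * ((b : H) * x * (b : H)⁻¹) * (a : H)⁻¹
        push_cast
        group }
  have hρmk : ∀ (m : N) (x : T), ρ m (QuotientGroup.mk' V' x) =
      QuotientGroup.mk' V' (⟨(m : H) * x * (m : H)⁻¹, (mem_normalizer_iff.mp (hNT m.2) _).mp x.2⟩ : T) :=
    fun _ _ => rfl
  have hρs : ∀ (m : N) (u : T ⧸ V'), ((s (ρ m u) : V) : H) = (m : H) * (s u : V) * (m : H)⁻¹ := by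
    intro m u
    obtain ⟨x, rfl⟩ := QuotientGroup.mk'_surjective V' u
    rw [hρmk, hsmk, hsmk]
    show (m : H) * x * (m : H)⁻¹ * ((m : H) * x * (m : H)⁻¹) = (m : H) * ((x : H) * x) * (m : H)⁻¹
    group
  have hρ1 : ∀ m : N, ρ m = 1 → ∀ x ∈ T, (m : H) * x * (m : H)⁻¹ * x⁻¹ ∈ V := by
    intro m hm x hx
    have h1 : ρ m (QuotientGroup.mk' V' ⟨x, hx⟩) = QuotientGroup.mk' V' ⟨x, hx⟩ := by rw [hm]; rfl
    rw [hρmk, eq_comm, QuotientGroup.mk'_eq_mk'] at h1
    obtain ⟨z, hz, hz2⟩ := h1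
    have h2 : x * (z : H) = (m : H) * x * (m : H)⁻¹ := congrArg Subtype.val hz2
    rw [← h2]
    exact S.conjV x hz
  -- the fibres
  set w₀ : V := s (QuotientGroup.mk' V' ⟨x₀, hx₀T⟩) with hw₀
  have hw₀1 : w₀ ≠ 1 := by
    intro h
    apply hx₀V
    rw [S.memV]
    exact congrArg Subtype.val h
  set f := Nat.card {u : T ⧸ V' // s u = w₀} with hf
  have hfib : ∀ w : V, w ≠ 1 → Nat.card {u : T ⧸ V' // s u = w} = f := by
    intro w hw
    obtain ⟨h, hh⟩ := S.trans w₀ w₀.2 w w.2 (fun h => hw₀1 (Subtype.ext h)) (fun h => hw (Subtype.ext h))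
    obtain ⟨q, hq, hqh⟩ := hcov h
    have h3 : (q * h) * w₀ * (q * h)⁻¹ = w := by
      calc (q * h) * w₀ * (q * h)⁻¹ = q * (h * w₀ * h⁻¹) * q⁻¹ := by group
        _ = q * w * q⁻¹ := by rw [hh]
        _ = w := by rw [S.VQ w w.2 q hq]; group
    refine Nat.card_congr (Equiv.symm ?_)
    refine (ρ ⟨q * h, hqh⟩).toEquiv.subtypeEquiv ?_
    intro u
    constructor
    · intro hu
      apply Subtype.ext
      show ((s (ρ ⟨q * h, hqh⟩ u) : V) : H) = w
      rw [hρs, hu, h3]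
    · intro hu
      apply Subtype.ext
      have h4 : ((s (ρ ⟨q * h, hqh⟩ u) : V) : H) = w := congrArg Subtype.val hu
      rw [hρs, ← h3] at h4
      exact mul_left_cancel (mul_right_cancel h4)
  have hf0 : f ≠ 0 := by
    rw [hf]
    have : Nonempty {u : T ⧸ V' // s u = w₀} := ⟨⟨_, hw₀.symm⟩⟩
    exact Nat.card_pos.ne'
  -- `L` is nontrivial on `T / V`
  have hLnt : ¬ ∀ l ∈ L, ∀ x ∈ T, l * x * l⁻¹ * x⁻¹ ∈ V := by
    intro hc
    apply hx₀V
    have h1 : ⁅T, L⁆ ≤ V := by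
      rw [Subgroup.commutator_le]
      intro x hx l hl
      rw [commutatorElement_def]
      have h2 := inv_mem (hc l hl x hx)
      have h3 : (l * x * l⁻¹ * x⁻¹)⁻¹ = x * l * x⁻¹ * l⁻¹ := by group
      rwa [h3] at h2
    rw [hcomm] at h1
    exact h1 hx₀T
  -- the quadratic property
  have hbil : ∀ a ∈ T, ∀ b ∈ T, (a * b) * (a * b) * (a * a) * (b * b) = a * b * a⁻¹ * b⁻¹ := by
    intro a ha b hb
    have hc := hcV b hb a ha
    have hcc := (S.memV _).mp hc
    set c := b * a * b⁻¹ * a⁻¹ with hcdef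
    have h1 : b * a = c * (a * b) := by rw [hcdef]; group
    have h2 : a * b * a⁻¹ * b⁻¹ = c := by
      have h3 : a * b * a⁻¹ * b⁻¹ = c⁻¹ := by rw [hcdef]; group
      rw [h3]; exact (eq_inv_of_mul_eq_one_left hcc).symm
    rw [h2]
    clear_value c
    have h4 := hsq a ha
    have h5 := hsq b hb
    have h6 : a * c = c * a := hVTc c hc a ha
    have h7 : (b * b) * (a * a) = (a * a) * (b * b) := S.VQ _ (hsV a ha) _ (S.VleQ (hsV b hb))
    calc (a * b) * (a * b) * (a * a) * (b * b) = a * (b * a) * b * (a * a) * (b * b) := by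
          simp only [mul_assoc]
      _ = (a * c) * a * (b * b) * (a * a) * (b * b) := by rw [h1]; simp only [mul_assoc]
      _ = c * (a * a) * ((b * b) * (a * a)) * (b * b) := by rw [h6]; simp only [mul_assoc]
      _ = c * ((a * a) * (a * a)) * ((b * b) * (b * b)) := by rw [h7]; simp only [mul_assoc]
      _ = c := by rw [h4, h5, mul_one, mul_one]
  have hbil2 : ∀ x ∈ T, ∀ y ∈ T, ∀ z ∈ T, (x * y) * z * (x * y)⁻¹ * z⁻¹ =
      (x * z * x⁻¹ * z⁻¹) * (y * z * y⁻¹ * z⁻¹) := by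
    intro x hx y hy z hz
    have hc := hcV y hy z hz
    have h1 : x * (y * z * y⁻¹ * z⁻¹) = (y * z * y⁻¹ * z⁻¹) * x := hVTc _ hc x hx
    have h2 : (x * z * x⁻¹ * z⁻¹) * (y * z * y⁻¹ * z⁻¹) = (y * z * y⁻¹ * z⁻¹) * (x * z * x⁻¹ * z⁻¹) :=
      hVTc _ hc _ (mul_mem (mul_mem (mul_mem hx hz) (inv_mem hx)) (inv_mem hz))
    rw [h2]
    calc (x * y) * z * (x * y)⁻¹ * z⁻¹ = x * (y * z * y⁻¹ * z⁻¹) * z * x⁻¹ * z⁻¹ := by group
      _ = _ := by rw [h1]; simp only [mul_assoc]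
  rcases Quad.mult_version (U := T ⧸ V') (W := V)
    (fun u => by
      obtain ⟨x, rfl⟩ := QuotientGroup.mk'_surjective V' u
      rw [← map_mul]
      exact (QuotientGroup.eq_one_iff _).mpr (hsV x x.2))
    (fun w => Subtype.ext ((S.memV _).mp w.2)) s
    (by
      have h1 : s (QuotientGroup.mk' V' 1) = 1 := by
        rw [hsmk]; apply Subtype.ext; show (1 : H) * 1 = 1; rw [one_mul]
      rwa [map_one] at h1)
    (by
      intro a b c
      obtain ⟨x, rfl⟩ := QuotientGroup.mk'_surjective V' a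
      obtain ⟨y, rfl⟩ := QuotientGroup.mk'_surjective V' b
      obtain ⟨z, rfl⟩ := QuotientGroup.mk'_surjective V' c
      rw [← map_mul, ← map_mul, ← map_mul, ← map_mul, hsmk, hsmk, hsmk, hsmk, hsmk, hsmk, hsmk]
      apply Subtype.ext
      show ((x : H) * y * z) * ((x : H) * y * z) * (((x : H) * y) * ((x : H) * y)) * ((z : H) * z) =
        ((((x : H) * z) * ((x : H) * z)) * ((x : H) * x) * ((z : H) * z)) *
        ((((y : H) * z) * ((y : H) * z)) * ((y : H) * y) * ((z : H) * z))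
      rw [hbil _ (mul_mem x.2 y.2) _ z.2, hbil _ x.2 _ z.2, hbil _ y.2 _ z.2, hbil2 _ x.2 _ y.2 _ z.2])
    (by
      intro a ha
      obtain ⟨x, rfl⟩ := QuotientGroup.mk'_surjective V' a
      rw [hsmk] at ha
      have h1 : (x : H) * x = 1 := congrArg Subtype.val ha
      exact (QuotientGroup.eq_one_iff _).mpr ((S.memV _).mpr h1))
    n (by have := S.n2; omega) S.cardV f hfib hf0 with hf1 | hmain
  · -- `f = 1`
    exfalso
    apply hLnt
    intro l hl x hx
    by_cases hxV : x ∈ V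
    · rw [hLV l hl x hxV]
      have : x * l * l⁻¹ * x⁻¹ = 1 := by group
      rw [this]; exact one_mem _
    have hw : s (QuotientGroup.mk' V' ⟨x, hx⟩) ≠ 1 := by
      intro h
      apply hxV
      rw [S.memV]
      exact congrArg Subtype.val h
    have h1 := hfib _ hw
    rw [hf1, Nat.card_eq_one_iff_unique] at h1
    have h2 : s (ρ ⟨l, hLN hl⟩ (QuotientGroup.mk' V' ⟨x, hx⟩)) = s (QuotientGroup.mk' V' ⟨x, hx⟩) := by
      apply Subtype.ext
      rw [hρs]
      show l * _ * l⁻¹ = _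
      rw [hLV l hl _ (s (QuotientGroup.mk' V' ⟨x, hx⟩)).2]
      group
    have h3 := h1.1
    have h4 : ρ ⟨l, hLN hl⟩ (QuotientGroup.mk' V' ⟨x, hx⟩) = QuotientGroup.mk' V' ⟨x, hx⟩ :=
      congrArg Subtype.val (Subsingleton.elim
        (⟨_, h2⟩ : {u : T ⧸ V' // s u = s (QuotientGroup.mk' V' ⟨x, hx⟩)}) ⟨_, rfl⟩)
    rw [hρmk, eq_comm, QuotientGroup.mk'_eq_mk'] at h4
    obtain ⟨z, hz, hz2⟩ := h4
    have h5 : x * (z : H) = l * x * l⁻¹ := congrArg Subtype.val hz2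
    rw [← h5]
    exact S.conjV x hz
  -- the group `P`
  have hLp : IsPGroup t ((L.subgroupOf N).map ρ) := by
    have h1 : IsPGroup t (L.subgroupOf N) := hLt.comap_of_injective N.subtype N.subtype_injective
    exact h1.map ρ
  have hPs : ∀ g ∈ (L.subgroupOf N).map ρ, ∀ u, s (g u) = s u := by
    rintro _ ⟨l, hl, rfl⟩ u
    apply Subtype.ext
    rw [hρs, hLV l hl _ (s u).2]
    group
  obtain ⟨hPc, hPm⟩ := hmain t ht ((L.subgroupOf N).map ρ) hLp hPs
  refine ⟨?_, T, hNT, hTL, ?_⟩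
  · have hPne : (L.subgroupOf N).map ρ ≠ ⊥ := by
      intro hb
      apply hLnt
      intro l hl x hx
      have h1 : ρ ⟨l, hLN hl⟩ = 1 := by
        have : ρ ⟨l, hLN hl⟩ ∈ (L.subgroupOf N).map ρ := ⟨⟨l, hLN hl⟩, hl, rfl⟩
        rw [hb, mem_bot] at this
        exact this
      exact hρ1 ⟨l, hLN hl⟩ h1 x hx
    have hnt : Nontrivial ((L.subgroupOf N).map ρ) := (Subgroup.nontrivial_iff_ne_bot _).mpr hPne
    obtain ⟨k, hk0, hk⟩ := hLp.nontrivial_iff_card.mp hnt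
    rw [hk] at hPc
    exact (dvd_pow_self t hk0.ne').trans hPc
  · intro y hy k hyk hk l hl x hx
    have h1 := hPm (ρ ⟨y, hy⟩) (by
      rintro _ ⟨g, hg, rfl⟩
      refine ⟨⟨y, hy⟩ * g * ⟨y, hy⟩⁻¹, ?_, by rw [map_mul, map_mul, map_inv]⟩
      exact (mem_normalizer_iff.mp (hNL hy) _).mp hg) k
      (by
        rw [← map_pow]
        have : (⟨y, hy⟩ : N) ^ k = 1 := Subtype.ext hyk
        rw [this, map_one]) hk (ρ ⟨l, hLN hl⟩) ⟨⟨l, hLN hl⟩, hl, rfl⟩
    have h2 : ρ (⟨y, hy⟩ * ⟨l, hLN hl⟩ * ⟨y, hy⟩⁻¹ * ⟨l, hLN hl⟩⁻¹) = 1 := by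
      rw [map_mul, map_mul, map_mul, map_inv, map_inv, h1]
      group
    set c : H := y * l * y⁻¹ * l⁻¹ with hc
    have hcL : c ∈ L := mul_mem ((mem_normalizer_iff.mp (hNL hy) _).mp hl) (inv_mem hl)
    have h3 : ∀ i : ℤ, ∀ x ∈ T, c ^ i * x * (c ^ i)⁻¹ * x⁻¹ ∈ V := by
      intro i x hx
      have h4 : ρ ((⟨y, hy⟩ * ⟨l, hLN hl⟩ * ⟨y, hy⟩⁻¹ * ⟨l, hLN hl⟩⁻¹) ^ i) = 1 := by
        rw [map_zpow, h2, one_zpow]
      have h5 := hρ1 _ h4 x hx
      have h6 : (((⟨y, hy⟩ * ⟨l, hLN hl⟩ * ⟨y, hy⟩⁻¹ * ⟨l, hLN hl⟩⁻¹ : N) ^ i : N) : H) = c ^ i := rfl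
      rwa [h6] at h5
    have hzL : zpowers c ≤ L := zpowers_le.mpr hcL
    have h4 : zpowers c ≤ centralizer (T : Set H) := by
      refine Lib.CoprimeStab.le_centralizer_of_commutator_le (K := V)
        (Nat.Coprime.coprime_dvd_left (Subgroup.card_dvd_of_le hzL) (hLcop2 T hT2)) hVT ?_ ?_
      · rw [Subgroup.commutator_le]
        rintro x hx _ ⟨i, rfl⟩
        have h5 := inv_mem (h3 i x hx)
        have h6 : (c ^ i * x * (c ^ i)⁻¹ * x⁻¹)⁻¹ = ⁅x, c ^ i⁆ := by rw [commutatorElement_def]; group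
        rwa [h6] at h5
      · intro z hz
        rw [mem_centralizer_iff]
        intro v hv
        exact (hLV z (hzL hz) v hv).symm
    exact (mem_centralizer_iff.mp (h4 (mem_zpowers c)) x hx).symm

end Cfsg.Agent.H453.Suz
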