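import Mathlib
import Cfsg.Agent.H453.SuzLemma
import Cfsg.Agent.H453.PLen
import Cfsg.Agent.Lib.Zsigmondy
import Cfsg.Agent.OddOrderLocal.RankTwoFitting

/-!
# Solvable groups with one class of involutions
-/

set_option autoImplicit false

namespace Cfsg.Agent.H453.Suz

open Cfsg Subgroup

variable {H : Type*} [Group H] [Finite H] {Q V : Subgroup H} {n : ℕ}

theorem claimA (S : Setup Q V n) {r : ℕ} (hr : r.Prime) (hrn : n < r) (hrd : r ∣ 2 ^ n - 1)
    {t : ℕ} [ht' : Fact t.Prime] (ht : t ≠ 2) :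
    ∀ (c : ℕ) (L : Subgroup H), Nat.card L = c → IsPGroup t L → (Q ⊔ L).Normal →
      (∀ l ∈ L, ∀ v ∈ V, l * v = v * l) →
      ∀ y ∈ normalizer (L : Set H), ∀ j : ℕ, y ^ (r ^ j) = 1 → ∀ l ∈ L, y * l = l * y := by
  intro c
  induction c using Nat.strong_induction_on with
  | _ c ih =>
    intro L hc hLt hQL hLV y hy j hyj l hl
    have hQn := S.Qn
    by_cases hLne : L = ⊥
    · rw [hLne, mem_bot] at hl
      rw [hl, mul_one, one_mul]
    have hcop : (Nat.card L).Coprime (Nat.card Q) := by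
      obtain ⟨a, ha⟩ := IsPGroup.iff_card.mp hLt
      obtain ⟨b, hb⟩ := IsPGroup.iff_card.mp S.Q2
      rw [ha, hb]
      exact Nat.Coprime.pow a b ((Nat.coprime_primes ht'.out Nat.prime_two).mpr ht)
    have hQs : Group.IsSolvable Q := by
      have := S.Q2.isNilpotent
      infer_instance
    have hcov : ∀ h : H, ∃ q ∈ Q, q * h ∈ normalizer (L : Set H) :=
      PLen.exists_mul_mem_normalizer Q L hQs hcop hQL
    obtain ⟨htd, T, hNT, hTL, hcm⟩ := lemmaB S ht L (normalizer (L : Set H)) le_normalizer le_rfl hcov hLt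
      hLne hLV
    -- `B = C_L(T)`
    set B : Subgroup H := L ⊓ centralizer (T : Set H) with hB
    have hNB : normalizer (L : Set H) ≤ normalizer (B : Set H) := by
      apply le_normalizer_of
      intro m hm x hx
      refine ⟨(mem_normalizer_iff.mp hm _).mp hx.1, ?_⟩
      show m * x * m⁻¹ ∈ centralizer (T : Set H)
      rw [mem_centralizer_iff]
      intro z hz
      have h1 : m⁻¹ * z * m⁻¹⁻¹ ∈ T := (mem_normalizer_iff.mp (hNT (inv_mem hm)) _).mp hz
      have h2 := mem_centralizer_iff.mp hx.2 _ h1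
      have h3 : z * (m * x * m⁻¹) = m * (m⁻¹ * z * m⁻¹⁻¹ * x) * m⁻¹ := by group
      have h4 : (m * x * m⁻¹) * z = m * (x * (m⁻¹ * z * m⁻¹⁻¹)) * m⁻¹ := by group
      rw [h3, h4, h2]
    have hBL : B < L := by
      refine lt_of_le_of_ne inf_le_left ?_
      intro h
      apply hTL
      intro x hx l hl
      rw [← h] at hl
      exact (mem_centralizer_iff.mp hl.2 x hx).symm
    have hBcard : Nat.card B < c := by
      rw [← hc]
      exact Set.ncard_lt_ncard (by exact_mod_cast hBL) (Set.toFinite _)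
    have hQB : (Q ⊔ B).Normal := by
      constructor
      intro x hx h
      obtain ⟨q, hq, hqh⟩ := hcov h
      have h1 : (q * h) * x * (q * h)⁻¹ ∈ Q ⊔ B := by
        have h2 : normalizer (L : Set H) ≤ normalizer ((Q ⊔ B : Subgroup H) : Set H) := by
          apply le_normalizer_of
          intro m hm x hx
          rw [mem_sup_of_normal_left] at hx
          obtain ⟨a, ha, b, hb, rfl⟩ := hx
          have : m * (a * b) * m⁻¹ = (m * a * m⁻¹) * (m * b * m⁻¹) := by group
          rw [this]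
          exact mul_mem_sup (hQn.conj_mem a ha m) ((mem_normalizer_iff.mp (hNB hm) _).mp hb)
        exact (mem_normalizer_iff.mp (h2 hqh) _).mp hx
      have hq' : q ∈ Q ⊔ B := mem_sup_left hq
      have h3 : h * x * h⁻¹ = q⁻¹ * ((q * h) * x * (q * h)⁻¹) * q := by group
      rw [h3]
      exact mul_mem (mul_mem (inv_mem hq') h1) hq'
    have hyB := ih _ hBcard B rfl (hLt.to_le inf_le_left) hQB (fun l hl v hv => hLV l hl.1 v hv) y (hNB hy) j hyj
    set c' : H := y * l * y⁻¹ * l⁻¹ with hc'
    have hc'L : c' ∈ L := mul_mem ((mem_normalizer_iff.mp hy _).mp hl) (inv_mem hl)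
    have hr2 : r ≠ 2 := by
      have := S.n2
      omega
    have hrc : (r ^ j).Coprime (2 * n) := by
      apply Nat.Coprime.pow_left
      apply Nat.Coprime.mul_right
      · exact (Nat.coprime_primes hr Nat.prime_two).mpr hr2
      · rw [Nat.Prime.coprime_iff_not_dvd hr]
        intro h
        have := Nat.le_of_dvd (by have := S.n2; omega) h
        omega
    have hc'B : c' ∈ B := by
      refine ⟨hc'L, ?_⟩
      show c' ∈ centralizer (T : Set H)
      rw [mem_centralizer_iff]
      intro x hx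
      exact (hcm y hy (r ^ j) hyj hrc l hl x hx).symm
    have hyc := hyB c' hc'B
    have h1 : ∀ k : ℕ, y ^ k * l * (y ^ k)⁻¹ = c' ^ k * l := by
      intro k
      induction k with
      | zero => simp
      | succ k ihk =>
        have h2 : y * c' ^ k * y⁻¹ = c' ^ k := by
          have h3 : Commute y (c' ^ k) := (show Commute y c' from hyc).pow_right k
          rw [h3.eq]; group
        calc y ^ (k + 1) * l * (y ^ (k + 1))⁻¹ = y * (y ^ k * l * (y ^ k)⁻¹) * y⁻¹ := by
              rw [pow_succ']; group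
          _ = (y * c' ^ k * y⁻¹) * (y * l * y⁻¹) := by rw [ihk]; group
          _ = c' ^ k * (y * l * y⁻¹) := by rw [h2]
          _ = c' ^ (k + 1) * l := by rw [pow_succ]; rw [hc']; group
    have h2 : c' ^ (r ^ j) = 1 := by
      have h3 := h1 (r ^ j)
      rw [hyj, one_mul, inv_one, mul_one] at h3
      exact (mul_eq_right.mp h3.symm)
    have htr : t ≠ r := by
      rintro rfl
      have h3 : t ∣ 2 := by
        have h4 : 2 ^ n + 1 - (2 ^ n - 1) = 2 := by
          have := Nat.one_le_two_pow (n := n)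
          omega
        rw [← h4]
        exact Nat.dvd_sub htd hrd
      exact ht ((Nat.prime_dvd_prime_iff_eq hr Nat.prime_two).mp h3)
    obtain ⟨i, hi⟩ := hLt ⟨c', hc'L⟩
    have hi' : c' ^ t ^ i = 1 := congrArg Subtype.val hi
    have h3 : orderOf c' ∣ r ^ j := orderOf_dvd_of_pow_eq_one h2
    have h4 : orderOf c' ∣ t ^ i := orderOf_dvd_of_pow_eq_one hi'
    have h5 : (r ^ j).Coprime (t ^ i) := Nat.Coprime.pow j i ((Nat.coprime_primes hr ht'.out).mpr htr.symm)
    have h6 : c' = 1 := orderOf_eq_one_iff.mp (Nat.eq_one_of_dvd_coprimes h5 h3 h4)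
    calc y * l = (y * l * y⁻¹ * l⁻¹) * (l * y) := by group
      _ = l * y := by rw [← hc', h6, one_mul]

theorem exists_prime {n : ℕ} (hn : 2 ≤ n) : ∃ r : ℕ, r.Prime ∧ n < r ∧ r ∣ 2 ^ n - 1 := by
  by_cases h6 : n = 6
  · subst h6
    exact ⟨7, by norm_num, by norm_num, by norm_num⟩
  · obtain ⟨r, hr, h1, h2, -⟩ := Lib.Zsigmondy.exists_primitive (a := 2) (n := n) le_rfl hn
      (by
        rintro - ⟨k, hk⟩
        have h3 : k ≠ 0 := by rintro rfl; norm_num at hk
        have h4 : 2 ∣ 2 ^ k := dvd_pow_self 2 h3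
        omega)
      (by rintro ⟨-, h⟩; exact h6 h)
    refine ⟨r, hr, ?_, (h1 n).mpr dvd_rfl⟩
    have h3 := Nat.le_of_dvd (by have := hr.two_le; omega) h2
    have := hr.two_le
    omega

theorem index_centralizer {H : Type*} [Group H] [Finite H] (v : H) :
    (centralizer ({v} : Set H)).index = (MulAction.orbit (ConjAct H) v).ncard := by
  rw [← MulAction.index_stabilizer, Subgroup.centralizer_eq_comap_stabilizer]
  exact Subgroup.index_comap_of_surjective _ (ConjAct.toConjAct (G := H)).surjective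

/-- an `r`-element moving `v` -/
theorem exists_mover (S : Setup Q V n) {r : ℕ} (hr : r.Prime) (hrd : r ∣ 2 ^ n - 1) :
    ∃ v ∈ V, ∃ y : H, ∃ j : ℕ, y ^ (r ^ j) = 1 ∧ y * v ≠ v * y := by
  have := Fact.mk hr
  have hV1 : 1 < Nat.card V := by
    rw [S.cardV]; exact Nat.one_lt_two_pow (by have := S.n2; omega)
  obtain ⟨v, hv, hv1⟩ := (Subgroup.one_lt_card_iff_ne_bot V).mp hV1 |> (Subgroup.ne_bot_iff_exists_ne_one).mp |>
    fun ⟨a, ha⟩ => (⟨a, a.2, fun h => ha (Subtype.ext h)⟩ : ∃ v, v ∈ V ∧ v ≠ 1)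
  have horb : MulAction.orbit (ConjAct H) v = (V : Set H) \ {1} := by
    ext w
    constructor
    · rintro ⟨g, rfl⟩
      refine ⟨S.conjV (ConjAct.ofConjAct g) hv, ?_⟩
      intro h
      apply hv1
      have h1 : ConjAct.ofConjAct g * v * (ConjAct.ofConjAct g)⁻¹ = 1 := h
      exact conj_eq_one_iff.mp h1
    · rintro ⟨hw, hw1⟩
      obtain ⟨h, hh⟩ := S.trans v hv w hw hv1 hw1
      exact ⟨ConjAct.toConjAct h, hh⟩
  have hidx : (centralizer ({v} : Set H)).index = 2 ^ n - 1 := by
    rw [index_centralizer, horb, Set.ncard_sdiff_singleton_of_mem (one_mem V)]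
    rw [← S.cardV]
    rfl
  obtain ⟨R⟩ : Nonempty (Sylow r H) := inferInstance
  refine ⟨v, hv, ?_⟩
  by_contra hc
  push Not at hc
  have hle : (R : Subgroup H) ≤ centralizer ({v} : Set H) := by
    intro y hy
    rw [mem_centralizer_singleton_iff]
    obtain ⟨j, hj⟩ := R.2 ⟨y, hy⟩
    exact hc y j (congrArg Subtype.val hj)
  have h1 : ¬ r ∣ (R : Subgroup H).index := R.not_dvd_index
  apply h1
  refine dvd_trans ?_ (Subgroup.index_dvd_of_le hle)
  rw [hidx]
  exact hrd

/-- the theorem in the group `H = G / O(G)` -/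
theorem index_coprime {H : Type*} [Group H] [Finite H] (hs : Group.IsSolvable H)
    (hO : pPrimeCore 2 H = ⊥) (hconj : ∀ x y : H, orderOf x = 2 → orderOf y = 2 → IsConj x y)
    (htwo : ∃ x y : H, orderOf x = 2 ∧ orderOf y = 2 ∧ x ≠ y) : (pCore 2 H).index.Coprime 2 := by
  obtain ⟨x₀, y₀, hx₀, hy₀, hxy₀⟩ := htwo
  have hps : IsPSolvable 2 H := Lib.PSolvable.IsPSolvable_of_solvable 2
  have hd : 2 ∣ Nat.card H := by rw [← hx₀]; exact orderOf_dvd_natCard x₀
  obtain ⟨h0, h | h⟩ := PLen.index_coprime_or (p := 2) hps hO hd (by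
    rintro D hD ⟨x, hx, hx2⟩ y hy
    obtain ⟨c, hc⟩ := isConj_iff.mp (hconj x y hx2 hy)
    rw [← hc]
    have hDn : D.Normal := inferInstance
    exact hDn.conj_mem x hx c)
  · exact h
  exfalso
  have hQp : IsPGroup 2 (pCore 2 H) := Lib.Cores.pCore_isPGroup 2
  have hCQ := Lib.PSolvable.centralizer_pCore_le_of_pSolvable 2 hps hO
  have hQq : pCore 2 (H ⧸ pCore 2 H) = ⊥ := Lib.Cores.pCore_quotient_pCore 2
  set Q := pCore 2 H with hQdef
  have hQn : Q.Normal := inferInstance
  -- elements with `x * x = 1`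
  have hsq : ∀ x : H, x * x = 1 → x = 1 ∨ orderOf x = 2 := by
    intro x hx
    have h1 : orderOf x ∣ 2 := orderOf_dvd_of_pow_eq_one (by rw [pow_two]; exact hx)
    rcases (Nat.dvd_prime Nat.prime_two).mp h1 with h | h
    · left; exact orderOf_eq_one_iff.mp h
    · right; exact h
  have hsqQ : ∀ x : H, x * x = 1 → x ∈ Q ∧ ∀ y ∈ Q, y * x = x * y := by
    intro x hx
    rcases hsq x hx with rfl | h1
    · exact ⟨one_mem _, fun y _ => by rw [mul_one, one_mul]⟩
    · exact h0 x h1
  let V : Subgroup H :=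
    { carrier := {x | x * x = 1}
      one_mem' := mul_one 1
      mul_mem' := by
        intro a b ha hb
        show a * b * (a * b) = 1
        have h1 := (hsqQ a ha).2 b (hsqQ b hb).1
        calc a * b * (a * b) = a * (b * a) * b := by group
          _ = (a * a) * (b * b) := by rw [h1]; group
          _ = 1 := by rw [show a * a = 1 from ha, show b * b = 1 from hb, one_mul]
      inv_mem' := by
        intro a ha
        show a⁻¹ * a⁻¹ = 1
        rw [← mul_inv_rev, show a * a = 1 from ha, inv_one] }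
  have hmemV : ∀ x, x ∈ V ↔ x * x = 1 := fun _ => Iff.rfl
  have hVQ : V ≤ Q := fun x hx => (hsqQ x hx).1
  obtain ⟨n, hn⟩ := IsPGroup.iff_card.mp (hQp.to_le hVQ)
  have hx₀V : x₀ ∈ V := by
    rw [hmemV, ← pow_two, ← hx₀]; exact pow_orderOf_eq_one x₀
  have hy₀V : y₀ ∈ V := by
    rw [hmemV, ← pow_two, ← hy₀]; exact pow_orderOf_eq_one y₀
  have hn2 : 2 ≤ n := by
    by_contra hlt
    have h1 : Nat.card V ≤ 2 := by
      rw [hn]
      interval_cases n <;> norm_num
    have h2 : ({1, x₀, y₀} : Set H) ⊆ V := by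
      rintro x (rfl | rfl | rfl)
      · exact one_mem _
      · exact hx₀V
      · exact hy₀V
    have h3 : ({1, x₀, y₀} : Set H).ncard = 3 := by
      rw [Set.ncard_eq_three]
      refine ⟨1, x₀, y₀, ?_, ?_, hxy₀, rfl⟩
      · rintro rfl
        rw [orderOf_one] at hx₀; norm_num at hx₀
      · rintro rfl
        rw [orderOf_one] at hy₀; norm_num at hy₀
    have h4 := Set.ncard_le_ncard h2 (Set.toFinite _)
    rw [h3] at h4
    have h5 : (V : Set H).ncard = Nat.card V := rfl
    omega
  have S : Setup Q V n :=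
    { Qn := hQn
      Q2 := hQp
      CQ := hCQ
      memV := hmemV
      VQ := fun v hv q hq => (hsqQ v hv).2 q hq
      VleQ := hVQ
      trans := by
        intro x hx y hy hx1 hy1
        have h1 := (hsq x hx).resolve_left hx1
        have h2 := (hsq y hy).resolve_left hy1
        exact isConj_iff.mp (hconj x y h1 h2)
      cardV := hn
      n2 := hn2 }
  obtain ⟨r, hr, hrn, hrd⟩ := exists_prime hn2
  obtain ⟨v, hv, y, j, hyj, hyv⟩ := exists_mover S hr hrd
  have hr2 : r ≠ 2 := by omega
  -- the preimage of `O(H/Q)` centralizes `V`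
  have hMV : ∀ m : H, QuotientGroup.mk' Q m ∈ pPrimeCore 2 (H ⧸ Q) → ∀ w ∈ V, m * w = w * m := by
    intro m hm w hw
    rcases hsq w hw with rfl | hw2
    · rw [mul_one, one_mul]
    · exact h w hw2 m hm
  apply hyv
  refine hMV y ?_ v hv
  -- `ȳ` centralizes all the `O_t(H/Q)`
  have hcores : ∀ t : ℕ, t.Prime → QuotientGroup.mk' Q y ∈ centralizer (pCore t (H ⧸ Q) : Set (H ⧸ Q)) := by
    intro t htp
    have htf := Fact.mk htp
    by_cases ht2 : t = 2
    · subst ht2
      rw [hQq, mem_centralizer_iff]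
      intro z hz
      rw [coe_bot, Set.mem_singleton_iff] at hz
      rw [hz, mul_one, one_mul]
    set W : Subgroup H := (pCore t (H ⧸ Q)).comap (QuotientGroup.mk' Q) with hW
    have hWn : W.Normal := inferInstance
    have hQW : Q ≤ W := by
      intro x hx
      rw [hW, mem_comap]
      have : QuotientGroup.mk' Q x = 1 := (QuotientGroup.eq_one_iff x).2 hx
      rw [this]; exact one_mem _
    obtain ⟨L'⟩ : Nonempty (Sylow t W) := inferInstance
    set L : Subgroup H := (L' : Subgroup W).map W.subtype with hL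
    have hLW : L ≤ W := Subgroup.map_subtype_le _
    have hLt : IsPGroup t L := L'.2.map W.subtype
    have hcore := Lib.Cores.pCore_isPGroup (G := H ⧸ Q) t
    have hWcard : Nat.card W = Nat.card Q * Nat.card (pCore t (H ⧸ Q)) :=
      OddOrderLocal.PLengthOne.card_comap_mk' Q _
    obtain ⟨a, ha⟩ := IsPGroup.iff_card.mp hQp
    obtain ⟨b, hb⟩ := IsPGroup.iff_card.mp hcore
    obtain ⟨c, hc⟩ := IsPGroup.iff_card.mp hLt
    have hLcard : Nat.card L = t ^ b := by
      have h1 : Nat.card L = Nat.card (L' : Subgroup W) :=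
        Subgroup.card_map_of_injective W.subtype_injective
      rw [h1, L'.card_eq_multiplicity, hWcard, ha, hb]
      congr 1
      rw [Nat.factorization_mul (by positivity) (pow_ne_zero _ htp.ne_zero), Finsupp.add_apply,
        Nat.factorization_pow, Nat.factorization_pow, Finsupp.smul_apply, Finsupp.smul_apply,
        htp.factorization_self, Nat.Prime.factorization Nat.prime_two, Finsupp.single_apply]
      rw [if_neg (fun h => ht2 h.symm)]
      simp
    have hLcop : (Nat.card L).Coprime (Nat.card Q) := by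
      rw [hLcard, ha]
      exact Nat.Coprime.pow b a ((Nat.coprime_primes htp Nat.prime_two).mpr ht2)
    have hinf : Q ⊓ L = ⊥ := (Subgroup.disjoint_of_coprime_natCard hLcop.symm).eq_bot
    have hsup : Q ⊔ L = W := by
      apply Subgroup.eq_of_le_of_card_ge (sup_le hQW hLW)
      have h1 : Nat.card (Q ⊔ L : Subgroup H) = Nat.card Q * Nat.card L := by
        have h2 := Subgroup.card_mul_index (Q.subgroupOf (Q ⊔ L))
        have h3 : Nat.card (Q.subgroupOf (Q ⊔ L)) = Nat.card Q :=
          Nat.card_congr (subgroupOfEquivOfLe le_sup_left).toEquiv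
        have h4 : (Q.subgroupOf (Q ⊔ L)).index = Q.relIndex L := by
          have : (Q.subgroupOf (Q ⊔ L)).index = Q.relIndex (Q ⊔ L) := rfl
          rw [this, sup_comm, Subgroup.relIndex_sup_right]
        have h5 : Q.relIndex L = Nat.card L := by
          rw [← Subgroup.inf_relIndex_right, hinf, Subgroup.relIndex_bot_left]
        rw [h3, h4, h5] at h2
        exact h2.symm
      rw [h1, hLcard, hWcard, hb]
    have hQs : Group.IsSolvable Q := by
      have := hQp.isNilpotent
      infer_instance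
    -- change `y`
    obtain ⟨q, hq, hqy⟩ := PLen.exists_mul_mem_normalizer Q L hQs hLcop (by rw [hsup]; exact hWn) y
    have hzbar : QuotientGroup.mk' Q (q * y) = QuotientGroup.mk' Q y := by
      rw [map_mul, show QuotientGroup.mk' Q q = 1 from (QuotientGroup.eq_one_iff q).2 hq, one_mul]
    have hzr : (q * y) ^ (r ^ j) ∈ Q := by
      have h1 : QuotientGroup.mk' Q ((q * y) ^ (r ^ j)) = 1 := by
        rw [map_pow, hzbar, ← map_pow, hyj, map_one]
      exact (QuotientGroup.eq_one_iff _).mp h1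
    obtain ⟨k, hk⟩ := hQp ⟨_, hzr⟩
    have hk' : ((q * y) ^ (r ^ j)) ^ (2 ^ k) = 1 := congrArg Subtype.val hk
    have hcop : (r ^ j).Coprime (2 ^ k) := Nat.Coprime.pow j k ((Nat.coprime_primes hr Nat.prime_two).mpr hr2)
    obtain ⟨e, he1, he2⟩ := Nat.chineseRemainder hcop 1 0
    have he2' : 2 ^ k ∣ e := (Nat.modEq_zero_iff_dvd).mp he2
    have hcomm : ∀ l ∈ L, (q * y) ^ e * l = l * (q * y) ^ e := by
      refine claimA S hr hrn hrd ht2 _ L rfl hLt (by rw [hsup]; exact hWn) ?_ ((q * y) ^ e)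
        (pow_mem hqy e) j ?_
      · intro l hl w hw
        refine hMV l ?_ w hw
        have h1 : QuotientGroup.mk' Q l ∈ pCore t (H ⧸ Q) := hLW hl
        refine Lib.Cores.le_pPrimeCore inferInstance ?_ h1
        rw [hb]
        exact Nat.Coprime.pow_left b ((Nat.coprime_primes htp Nat.prime_two).mpr ht2)
      · obtain ⟨m, rfl⟩ := he2'
        rw [← pow_mul, mul_comm (2 ^ k * m), ← mul_assoc, pow_mul, pow_mul, hk', one_pow]
    have hybar : QuotientGroup.mk' Q ((q * y) ^ e) = QuotientGroup.mk' Q y := by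
      rw [map_pow, hzbar]
      have h1 : orderOf (QuotientGroup.mk' Q y) ∣ r ^ j :=
        orderOf_dvd_of_pow_eq_one (by rw [← map_pow, hyj, map_one])
      have h2 : e ≡ 1 [MOD orderOf (QuotientGroup.mk' Q y)] := he1.of_dvd h1
      have h3 := (pow_eq_pow_iff_modEq (x := QuotientGroup.mk' Q y)).mpr h2
      rw [h3, pow_one]
    rw [mem_centralizer_iff]
    intro z hz
    obtain ⟨w, rfl⟩ := QuotientGroup.mk'_surjective Q z
    have hwW : w ∈ W := hz
    rw [← hsup, mem_sup_of_normal_left] at hwW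
    obtain ⟨q', hq', l, hl, rfl⟩ := hwW
    rw [map_mul, show QuotientGroup.mk' Q q' = 1 from (QuotientGroup.eq_one_iff q').2 hq', one_mul,
      ← hybar, ← map_mul, ← map_mul, hcomm l hl]
  have hF := (OddOrderLocal.RankTwoFitting.mem_fitting_of_forall_mem_centralizer hcores).2
  have hFle : fittingSubgroup (H ⧸ Q) ≤ pPrimeCore 2 (H ⧸ Q) := by
    rw [Lib.Cores.fittingSubgroup_eq_iSup_pCore]
    refine iSup_le fun t => ?_
    have htf : Fact (t : ℕ).Prime := ⟨t.2⟩
    by_cases ht2 : (t : ℕ) = 2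
    · rw [ht2, hQq]; exact bot_le
    · refine Lib.Cores.le_pPrimeCore inferInstance ?_
      obtain ⟨b, hb⟩ := IsPGroup.iff_card.mp (Lib.Cores.pCore_isPGroup (G := H ⧸ Q) t)
      rw [hb]
      exact Nat.Coprime.pow_left b ((Nat.coprime_primes t.2 Nat.prime_two).mpr ht2)
  exact hFle hF

end Cfsg.Agent.H453.Suz
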